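import Mathlib
import Cfsg.Prelude.Def_GeometricClasses

/-! Tools for exhibiting intermediate subgroups: square-zero perturbations of the identity,
components relative to a decomposition. -/
set_option autoImplicit false

namespace CfsgLib.NonMax.Tools
open scoped Matrix

variable {ι : Type} [Fintype ι] [DecidableEq ι] {F : Type*} [Field F]

/-- the invertible matrix of `x ↦ x + N x` when `N ∘ N = 0` -/
noncomputable def unip (N : (ι → F) →ₗ[F] (ι → F)) (hN : ∀ x, N (N x) = 0) : GL ι F where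
  val := 1 + LinearMap.toMatrix' N
  inv := 1 - LinearMap.toMatrix' N
  val_inv := by
    have h : LinearMap.toMatrix' N * LinearMap.toMatrix' N = 0 := by
      rw [← LinearMap.toMatrix'_comp, show N ∘ₗ N = 0 from LinearMap.ext hN, map_zero]
    rw [add_mul, one_mul, mul_sub, mul_one, h]; abel
  inv_val := by
    have h : LinearMap.toMatrix' N * LinearMap.toMatrix' N = 0 := by
      rw [← LinearMap.toMatrix'_comp, show N ∘ₗ N = 0 from LinearMap.ext hN, map_zero]
    rw [sub_mul, one_mul, mul_add, mul_one, h]; abel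

theorem unip_apply (N : (ι → F) →ₗ[F] (ι → F)) (hN : ∀ x, N (N x) = 0) (x : ι → F) :
    (unip N hN).1 *ᵥ x = x + N x := by
  show (1 + LinearMap.toMatrix' N) *ᵥ x = _
  rw [Matrix.add_mulVec, Matrix.one_mulVec, LinearMap.toMatrix'_mulVec]

theorem unip_det [Finite F] (N : (ι → F) →ₗ[F] (ι → F)) (hN : ∀ x, N (N x) = 0) :
    Matrix.GeneralLinearGroup.det (unip N hN) = 1 := by
  obtain ⟨p, hp⟩ := CharP.exists F
  haveI : Fact p.Prime := ⟨CharP.char_is_prime F p⟩
  haveI := ExpChar.prime (R := F) (Fact.out : p.Prime)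
  have hpow : ∀ k : ℕ, ((unip N hN).1 : Matrix ι ι F) ^ k = 1 + (k : F) • LinearMap.toMatrix' N := by
    have h : LinearMap.toMatrix' N * LinearMap.toMatrix' N = 0 := by
      rw [← LinearMap.toMatrix'_comp, show N ∘ₗ N = 0 from LinearMap.ext hN, map_zero]
    intro k
    induction k with
    | zero => simp
    | succ k ih =>
      rw [pow_succ, ih]
      show (1 + (k : F) • LinearMap.toMatrix' N) * (1 + LinearMap.toMatrix' N) = _
      rw [add_mul, one_mul, Matrix.smul_mul, mul_add, mul_one, h, add_zero, Nat.cast_succ, add_smul, one_smul]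
      abel
  apply Units.ext
  show (unip N hN).1.det = 1
  have h1 : ((unip N hN).1.det) ^ p = 1 := by
    rw [← Matrix.det_pow, hpow, CharP.cast_eq_zero, zero_smul, add_zero, Matrix.det_one]
  exact frobenius_inj F p (by rw [frobenius_def, frobenius_def, h1, one_pow])

theorem unip_mem_specialLinear [Finite F] (N : (ι → F) →ₗ[F] (ι → F)) (hN : ∀ x, N (N x) = 0) :
    unip N hN ∈ Cfsg.Geo.specialLinear ι F :=
  MonoidHom.mem_ker.2 (unip_det N hN)

/-! ### decompositions -/

variable {t m : ℕ} {D : Fin t → Submodule F (ι → F)}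

theorem internal (hD : Cfsg.Geo.IsMDecomposition m D) : DirectSum.IsInternal D :=
  (DirectSum.isInternal_submodule_iff_iSupIndep_and_iSup_eq_top D).2 ⟨hD.indep, hD.iSup_eq_top⟩

theorem bij (hD : Cfsg.Geo.IsMDecomposition m D) : Function.Bijective (DirectSum.coeLinearMap D) := internal hD

/-- components with respect to a decomposition -/
noncomputable def comp (hD : Cfsg.Geo.IsMDecomposition m D) (i : Fin t) : (ι → F) →ₗ[F] (ι → F) :=
  (D i).subtype ∘ₗ DirectSum.component F (Fin t) (fun j => D j) i ∘ₗ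
    (LinearEquiv.ofBijective (DirectSum.coeLinearMap D) (bij hD)).symm.toLinearMap

theorem comp_mem (hD : Cfsg.Geo.IsMDecomposition m D) (i : Fin t) (x : ι → F) : comp hD i x ∈ D i :=
  Submodule.coe_mem _

theorem sum_comp (hD : Cfsg.Geo.IsMDecomposition m D) (x : ι → F) : ∑ i, comp hD i x = x := by
  classical
  obtain ⟨d, rfl⟩ := (LinearEquiv.ofBijective (DirectSum.coeLinearMap D) (bij hD)).surjective x
  simp only [comp, LinearMap.comp_apply, LinearEquiv.coe_coe, LinearEquiv.symm_apply_apply,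
    DirectSum.component]
  conv_rhs => rw [LinearEquiv.ofBijective_apply, ← DirectSum.sum_univ_of (β := fun j => D j) d, map_sum]
  refine Finset.sum_congr rfl fun i _ => ?_
  exact (DirectSum.coeLinearMap_of D i (d i)).symm

theorem comp_of_mem (hD : Cfsg.Geo.IsMDecomposition m D) {i : Fin t} {x : ι → F} (hx : x ∈ D i) (j : Fin t) :
    comp hD j x = if i = j then x else 0 := by
  classical
  have h : x = LinearEquiv.ofBijective (DirectSum.coeLinearMap D) (bij hD) (DirectSum.of (fun j => D j) i ⟨x, hx⟩) := by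
    exact (DirectSum.coeLinearMap_of D i ⟨x, hx⟩).symm
  conv_lhs => rw [h]
  simp only [comp, LinearMap.comp_apply, LinearEquiv.coe_coe, LinearEquiv.symm_apply_apply, DirectSum.component]
  rcases eq_or_ne i j with rfl | hne
  · rw [if_pos rfl]
    show ((DirectSum.of (fun j => D j) i ⟨x, hx⟩) i : ι → F) = x
    rw [DirectSum.of_eq_same]
  · rw [if_neg hne]
    show ((DirectSum.of (fun j => D j) i ⟨x, hx⟩) j : ι → F) = 0
    rw [DirectSum.of_eq_of_ne _ _ _ (Ne.symm hne)]
    rfl

theorem card_eq (hD : Cfsg.Geo.IsMDecomposition m D) : Fintype.card ι = t * m := by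
  classical
  have h := (LinearEquiv.ofBijective (DirectSum.coeLinearMap D) (bij hD)).finrank_eq
  rw [Module.finrank_directSum, Module.finrank_fintype_fun_eq_card] at h
  simp only [hD.finrank_eq, Finset.sum_const, Finset.card_univ, Fintype.card_fin, smul_eq_mul] at h
  exact h.symm

theorem exists_ne_zero (hD : Cfsg.Geo.IsMDecomposition m D) (i : Fin t) : ∃ x ∈ D i, x ≠ 0 := by
  refine Submodule.exists_mem_ne_zero_of_ne_bot fun h => ?_
  have := hD.finrank_eq i
  rw [h, finrank_bot] at this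
  exact hD.pos.ne' this.symm

/-- two non-zero components: not contained in a member -/
theorem not_mem_of_comp (hD : Cfsg.Geo.IsMDecomposition m D) {x : ι → F} {i j : Fin t} (hij : i ≠ j)
    (hi : comp hD i x ≠ 0) (hj : comp hD j x ≠ 0) (k : Fin t) : x ∉ D k := by
  intro h
  rw [comp_of_mem hD h] at hi hj
  by_cases hki : k = i
  · rw [if_neg (hki ▸ hij)] at hj; exact hj rfl
  · rw [if_neg hki] at hi; exact hi rfl

theorem stab_perm {g : GL ι F} (hg : g ∈ Cfsg.Geo.decompositionStabilizer D) :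
    ∃ σ : Equiv.Perm (Fin t), ∀ i, ∀ x ∈ D i, g.1 *ᵥ x ∈ D (σ i) := by
  obtain ⟨σ, hσ⟩ := hg
  refine ⟨σ, fun i x hx => ?_⟩
  rw [← hσ i]
  exact ⟨x, hx, Matrix.toLin'_apply _ _⟩

theorem comp_stab (hD : Cfsg.Geo.IsMDecomposition m D) {g : GL ι F} {σ : Equiv.Perm (Fin t)}
    (hσ : ∀ i, ∀ x ∈ D i, g.1 *ᵥ x ∈ D (σ i)) (x : ι → F) (i : Fin t) :
    comp hD (σ i) (g.1 *ᵥ x) = g.1 *ᵥ comp hD i x := by
  classical
  conv_lhs => rw [← sum_comp hD x, Matrix.mulVec_sum, map_sum]
  rw [Finset.sum_eq_single i]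
  · rw [comp_of_mem hD (hσ i _ (comp_mem hD i x)), if_pos rfl]
  · intro j _ hj
    rw [comp_of_mem hD (hσ j _ (comp_mem hD j x)), if_neg (fun e => hj (σ.injective e))]
  · simp

/-- an element outside the stabiliser -/
theorem not_stab {g : GL ι F} {i : Fin t} {x : ι → F} (hx : x ∈ D i) (hgx : ∀ k, g.1 *ᵥ x ∉ D k) :
    g ∉ Cfsg.Geo.decompositionStabilizer D := fun h => by
  obtain ⟨σ, hσ⟩ := stab_perm h
  exact hgx _ (hσ i x hx)

theorem mulVec_ne_zero (g : GL ι F) {x : ι → F} (hx : x ≠ 0) : g.1 *ᵥ x ≠ 0 := fun h => hx (by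
  have := congrArg (fun y => (g⁻¹ : GL ι F).1 *ᵥ y) h
  rwa [Matrix.mulVec_mulVec, ← Units.val_mul, inv_mul_cancel, Units.val_one, Matrix.one_mulVec, Matrix.mulVec_zero] at this)

/-- membership criterion in `stabilizing` for finite sets -/
theorem mem_stabilizing [Finite F] {S : Set (ι → F)} {g : GL ι F} (h : ∀ v ∈ S, g.1 *ᵥ v ∈ S) :
    g ∈ Cfsg.stabilizing (Cfsg.glToMat ι F) S := by
  intro v
  refine ⟨h v, fun hv => ?_⟩
  let f : S → S := fun w => ⟨g.1 *ᵥ w.1, h w.1 w.2⟩
  have hinj : Function.Injective f := fun a b e => by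
    have := congrArg (fun y => (g⁻¹ : GL ι F).1 *ᵥ y) (congrArg Subtype.val e)
    simp only [f, Matrix.mulVec_mulVec, ← Units.val_mul, inv_mul_cancel, Units.val_one, Matrix.one_mulVec] at this
    exact Subtype.ext this
  obtain ⟨w, hw⟩ := Finite.injective_iff_surjective.1 hinj ⟨g.1 *ᵥ v, hv⟩
  have e : w.1 = v := by
    have := congrArg (fun y => (g⁻¹ : GL ι F).1 *ᵥ y) (congrArg Subtype.val hw)
    simp only [f, Matrix.mulVec_mulVec, ← Units.val_mul, inv_mul_cancel, Units.val_one, Matrix.one_mulVec] at this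
    exact this
  exact e ▸ w.2

theorem lt_and_lt {G : Type*} [Group G] {S K A : Subgroup G} (hSK : S ≤ K) (hKA : K ≤ A)
    {x y : G} (hxK : x ∈ K) (hxS : x ∉ S) (hyA : y ∈ A) (hyK : y ∉ K) : S < K ∧ K < A :=
  ⟨lt_of_le_not_ge hSK fun h => hxS (h hxK), lt_of_le_not_ge hKA fun h => hyK (h hyA)⟩

end CfsgLib.NonMax.Tools
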