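import Mathlib
import Cfsg.Prelude.Def_GeometricClasses
import Cfsg.Agent.Lib.Geometry.QuadBasic
import Cfsg.Agent.Lib.NonMax.Tools

/-! Products of two reflections in `Ω`, orthogonal complements, singular vectors and hyperbolic pairs. -/
set_option autoImplicit false

namespace CfsgLib.NonMax.OmegaTools
open scoped Matrix
open CfsgLib.Geometry.QuadBasic

variable {ι : Type} [Fintype ι] [DecidableEq ι] {F : Type*} [Field F] {Q : (ι → F) → F}

/-- the bundled quadratic form -/
noncomputable def toQ (hQ : Cfsg.Geo.IsNondegenerateQuadraticForm Q) : QuadraticForm F (ι → F) :=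
  QuadraticMap.ofPolar Q (fun a x => by rw [hQ.smul, smul_eq_mul, pow_two])
    (fun x x' y => hQ.polar_bilinear.add_left x x' y) (fun a x y => hQ.polar_bilinear.smul_left a x y)

theorem coe_toQ (hQ : Cfsg.Geo.IsNondegenerateQuadraticForm Q) : ⇑(toQ hQ) = Q := rfl

theorem nondegenerate (hQ : Cfsg.Geo.IsNondegenerateQuadraticForm Q) :
    (QuadraticMap.polarBilin (toQ hQ)).Nondegenerate := by
  refine ⟨fun x hx => ?_, fun x hx => ?_⟩ <;> by_contra h0
  · obtain ⟨y, hy⟩ := (hQ.nondegenerate x h0).2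
    exact hy (hx y)
  · obtain ⟨y, hy⟩ := (hQ.nondegenerate x h0).1
    exact hy (hx y)

/-- the reflection in `a` -/
noncomputable def refl (hQ : Cfsg.Geo.IsNondegenerateQuadraticForm Q) {a : ι → F} (ha : Q a ≠ 0) : GL ι F :=
  reflectionGL (toQ hQ) a ha

theorem refl_apply (hQ : Cfsg.Geo.IsNondegenerateQuadraticForm Q) {a : ι → F} (ha : Q a ≠ 0) (x : ι → F) :
    (refl hQ ha).1 *ᵥ x = x - ((Q a)⁻¹ * QuadraticMap.polar Q a x) • a :=
  reflection_mulVec (toQ hQ) a x

theorem refl_mem (hQ : Cfsg.Geo.IsNondegenerateQuadraticForm Q) {a : ι → F} (ha : Q a ≠ 0) :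
    refl hQ ha ∈ Cfsg.isometryGroup F Q :=
  reflectionGL_mem (toQ hQ) a ha

theorem refl_fix (hQ : Cfsg.Geo.IsNondegenerateQuadraticForm Q) {a : ι → F} (ha : Q a ≠ 0) {x : ι → F}
    (h : QuadraticMap.polar Q a x = 0) : (refl hQ ha).1 *ᵥ x = x := by
  rw [refl_apply, h, mul_zero, zero_smul, sub_zero]

theorem polar_self (hQ : Cfsg.Geo.IsNondegenerateQuadraticForm Q) (a : ι → F) : QuadraticMap.polar Q a a = 2 * Q a := by
  rw [← coe_toQ hQ, QuadraticMap.polar_self, two_nsmul, two_mul]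

theorem refl_sq (hQ : Cfsg.Geo.IsNondegenerateQuadraticForm Q) {a : ι → F} (ha : Q a ≠ 0) :
    refl hQ ha * refl hQ ha = 1 := by
  refine Units.ext (Matrix.ext_of_mulVec_single fun i => ?_)
  rw [Units.val_mul, ← Matrix.mulVec_mulVec, Units.val_one, Matrix.one_mulVec, refl_apply hQ ha (Pi.single i 1),
    Matrix.mulVec_sub, Matrix.mulVec_smul, refl_apply, refl_apply, polar_self hQ a]
  have h : ((Q a)⁻¹ * (2 * Q a)) = 2 := by field_simp
  rw [h, smul_sub, smul_smul, two_eq_one_add_one]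
  module
where
  two_eq_one_add_one : (2 : F) = 1 + 1 := one_add_one_eq_two.symm

/-- an element of `Ω` -/
theorem mem_omega_of_comm {g h : GL ι F} (hg : g ∈ Cfsg.isometryGroup F Q) (hh : h ∈ Cfsg.isometryGroup F Q) :
    g * h * g⁻¹ * h⁻¹ ∈ Cfsg.Geo.omegaGL Q := by
  have hc : (⟨g, hg⟩ * ⟨h, hh⟩ * ⟨g, hg⟩⁻¹ * ⟨h, hh⟩⁻¹ : Cfsg.isometryGroup F Q) ∈ commutator (Cfsg.isometryGroup F Q) := by
    rw [← commutatorElement_def]
    exact Subgroup.commutator_mem_commutator (Subgroup.mem_top _) (Subgroup.mem_top _)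
  exact Subgroup.mem_map_of_mem (Cfsg.isometryGroup F Q).subtype hc

theorem omega_le : Cfsg.Geo.omegaGL Q ≤ Cfsg.isometryGroup F Q := by
  rintro _ ⟨g, -, rfl⟩
  exact g.2

theorem omega_preserves {g : GL ι F} (hg : g ∈ Cfsg.Geo.omegaGL Q) (v : ι → F) : Q (g.1 *ᵥ v) = Q v :=
  omega_le hg v 0

theorem omega_polar {g : GL ι F} (hg : g ∈ Cfsg.Geo.omegaGL Q) (u v : ι → F) :
    QuadraticMap.polar Q (g.1 *ᵥ u) (g.1 *ᵥ v) = QuadraticMap.polar Q u v := by
  simp only [QuadraticMap.polar, ← Matrix.mulVec_add, omega_preserves hg]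

/-- two reflections in vectors of equal value lie in `Ω` -/
theorem pair_mem (hQ : Cfsg.Geo.IsNondegenerateQuadraticForm Q) {a b : ι → F} (ha : Q a ≠ 0) (hab : Q b = Q a)
    (hd : Q (a - b) ≠ 0) : refl hQ ha * refl hQ (hab ▸ ha : Q b ≠ 0) ∈ Cfsg.Geo.omegaGL Q := by
  set g := refl hQ hd with hg
  set hb : Q b ≠ 0 := hab ▸ ha
  have hga : g.1 *ᵥ a = b := by
    have e : QuadraticMap.polar Q (a - b) a = Q (a - b) := by
      have h2 : QuadraticMap.polar Q a (a - b) = QuadraticMap.polar Q a a - QuadraticMap.polar Q a b := (toQ hQ).polar_sub_right a a b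
      have h3 : Q (a - b) = Q a + Q b - QuadraticMap.polar Q a b := by
        have h4 : QuadraticMap.polar Q a (-b) = -QuadraticMap.polar Q a b := (toQ hQ).polar_neg_right a b
        have h5 : Q (-b) = Q b := (toQ hQ).map_neg b
        rw [sub_eq_add_neg a b]
        simp only [QuadraticMap.polar] at h4 ⊢
        rw [h5] at h4
        linear_combination h4
      rw [QuadraticMap.polar_comm, h2, h3, polar_self hQ, hab]
      ring
    rw [hg, refl_apply, e, inv_mul_cancel₀ hd, one_smul, sub_sub_cancel]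
  have hgg : g * g = 1 := refl_sq hQ hd
  have hgb : g.1 *ᵥ b = a := by
    rw [← hga, Matrix.mulVec_mulVec, ← Units.val_mul, hgg, Units.val_one, Matrix.one_mulVec]
  have hconj : g * refl hQ ha * g = refl hQ hb := by
    refine Units.ext (Matrix.ext_of_mulVec_single fun i => ?_)
    rw [Units.val_mul, Units.val_mul, ← Matrix.mulVec_mulVec, ← Matrix.mulVec_mulVec, refl_apply hQ ha, Matrix.mulVec_sub,
      Matrix.mulVec_smul, hga, Matrix.mulVec_mulVec, ← Units.val_mul, hgg, Units.val_one, Matrix.one_mulVec, refl_apply hQ hb]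
    congr 2
    rw [hab]
    congr 1
    have hp : ∀ u v, QuadraticMap.polar Q (g.1 *ᵥ u) (g.1 *ᵥ v) = QuadraticMap.polar Q u v := fun u v => by
      simp only [QuadraticMap.polar, ← Matrix.mulVec_add, (mem_isometryGroup_iff Q g).1 (refl_mem hQ hd)]
    rw [← hgb, hp]
  have h : refl hQ ha * refl hQ hb = refl hQ ha * g * (refl hQ ha)⁻¹ * g⁻¹ := by
    rw [← hconj, inv_eq_of_mul_eq_one_right (refl_sq hQ ha), inv_eq_of_mul_eq_one_right hgg]
    simp only [mul_assoc]
  rw [h]
  exact mem_omega_of_comm (refl_mem hQ ha) (refl_mem hQ hd)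

end CfsgLib.NonMax.OmegaTools
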