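import Mathlib
import Cfsg.Prelude.Def_GeometricClasses
import Cfsg.Agent.Lib.NonMax.OmegaTools

/-! Orthogonal complements, singular vectors and hyperbolic pairs for quadratic forms over very small fields. -/
set_option autoImplicit false

namespace CfsgLib.NonMax.Complement
open CfsgLib.NonMax.OmegaTools

variable {ι : Type} [Fintype ι] [DecidableEq ι] {F : Type*} [Field F] {Q : (ι → F) → F}

/-- the orthogonal complement -/
noncomputable def perp (hQ : Cfsg.Geo.IsNondegenerateQuadraticForm Q) (W : Submodule F (ι → F)) : Submodule F (ι → F) :=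
  LinearMap.BilinForm.orthogonal (QuadraticMap.polarBilin (toQ hQ)) W

theorem mem_perp (hQ : Cfsg.Geo.IsNondegenerateQuadraticForm Q) {W : Submodule F (ι → F)} {x : ι → F} :
    x ∈ perp hQ W ↔ ∀ w ∈ W, QuadraticMap.polar Q w x = 0 := Iff.rfl

theorem isCompl_perp (hQ : Cfsg.Geo.IsNondegenerateQuadraticForm Q) {W : Submodule F (ι → F)}
    (hW : Cfsg.Geo.IsNondegenerateOn (QuadraticMap.polar Q) W) : IsCompl W (perp hQ W) := by
  refine LinearMap.BilinForm.isCompl_orthogonal_of_restrict_nondegenerate (fun x y h => ?_) ?_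
  · show QuadraticMap.polar Q y x = 0
    rw [QuadraticMap.polar_comm]; exact h
  · refine ⟨fun x hx => ?_, fun x hx => ?_⟩ <;> by_contra h0
    · obtain ⟨y, hy, hne⟩ := (hW x.1 x.2 fun e => h0 (Subtype.ext e)).2
      exact hne (hx ⟨y, hy⟩)
    · obtain ⟨y, hy, hne⟩ := (hW x.1 x.2 fun e => h0 (Subtype.ext e)).1
      exact hne (hx ⟨y, hy⟩)

theorem finrank_perp (hQ : Cfsg.Geo.IsNondegenerateQuadraticForm Q) {W : Submodule F (ι → F)}
    (hW : Cfsg.Geo.IsNondegenerateOn (QuadraticMap.polar Q) W) :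
    Module.finrank F W + Module.finrank F (perp hQ W) = Fintype.card ι := by
  rw [Submodule.finrank_add_eq_of_isCompl (isCompl_perp hQ hW), Module.finrank_fintype_fun_eq_card]

theorem nondeg_perp (hQ : Cfsg.Geo.IsNondegenerateQuadraticForm Q) {W : Submodule F (ι → F)}
    (hW : Cfsg.Geo.IsNondegenerateOn (QuadraticMap.polar Q) W) :
    Cfsg.Geo.IsNondegenerateOn (QuadraticMap.polar Q) (perp hQ W) := by
  have key : ∀ x ∈ perp hQ W, x ≠ 0 → ∃ y ∈ perp hQ W, QuadraticMap.polar Q x y ≠ 0 := by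
    intro x hx h0
    obtain ⟨z, hz⟩ := (hQ.nondegenerate x h0).2
    obtain ⟨a, ha, b, hb, rfl⟩ := Submodule.mem_sup.1 ((isCompl_perp hQ hW).sup_eq_top ▸ Submodule.mem_top : z ∈ W ⊔ perp hQ W)
    refine ⟨b, hb, fun e => hz ?_⟩
    rw [hQ.polar_bilinear.add_right, e, QuadraticMap.polar_comm, mem_perp hQ |>.1 hx a ha, add_zero]
  intro x hx h0
  obtain ⟨y, hy, hne⟩ := key x hx h0
  exact ⟨⟨y, hy, by rwa [QuadraticMap.polar_comm]⟩, y, hy, hne⟩

/-- over a field with at most three elements three dimensions contain a singular vector -/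
theorem exists_singular [Fintype F] (hQ : Cfsg.Geo.IsNondegenerateQuadraticForm Q) (hF : Fintype.card F ≤ 3)
    {X : Submodule F (ι → F)} (hX : 3 ≤ Module.finrank F X) : ∃ z ∈ X, z ≠ 0 ∧ Q z = 0 := by
  classical
  by_contra hno
  push Not at hno
  have pick : ∀ u v : ι → F, ∃ y ∈ X, y ≠ 0 ∧ QuadraticMap.polar Q u y = 0 ∧ QuadraticMap.polar Q v y = 0 := by
    intro u v
    let φ : X →ₗ[F] F × F := ((QuadraticMap.polarBilin (toQ hQ) u).prod (QuadraticMap.polarBilin (toQ hQ) v)).comp X.subtype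
    have hk : φ.ker ≠ ⊥ := fun h => by
      have h1 := φ.finrank_range_add_finrank_ker
      rw [h, finrank_bot, add_zero] at h1
      have h2 := φ.range.finrank_le
      rw [Module.finrank_prod, Module.finrank_self, h1] at h2
      omega
    obtain ⟨y, hy, hy0⟩ := Submodule.exists_mem_ne_zero_of_ne_bot hk
    rw [LinearMap.mem_ker] at hy
    exact ⟨y.1, y.2, fun e => hy0 (Subtype.ext e), congrArg Prod.fst hy, congrArg Prod.snd hy⟩
  obtain ⟨x, hx, hx0, -, -⟩ := pick 0 0
  obtain ⟨y, hy, hy0, hxy, -⟩ := pick x x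
  obtain ⟨z, hz, hz0, hxz, hyz⟩ := pick x y
  have qa := hno x hx hx0
  have qb := hno y hy hy0
  have qc := hno z hz hz0
  have hsum : ∀ u v, QuadraticMap.polar Q u v = 0 → Q (u + v) = Q u + Q v := fun u v h => by
    simp only [QuadraticMap.polar] at h; linear_combination h
  have hne : ∀ u v, QuadraticMap.polar Q u v = 0 → Q u ≠ 0 → u + v = 0 → (2 : F) = 0 := by
    intro u v h hu e
    have hv : v = (-1 : F) • u := by rw [neg_one_smul]; exact (neg_eq_of_add_eq_zero_right e).symm
    rw [hv, hQ.polar_bilinear.smul_right, polar_self hQ] at h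
    exact (mul_eq_zero.1 (show (2 : F) * Q u = 0 by linear_combination -h)).resolve_right hu
  have h2F : 2 ≤ Fintype.card F := Fintype.one_lt_card
  obtain hq | hq : Fintype.card F = 2 ∨ Fintype.card F = 3 := by omega
  · -- two elements
    have h20 : (2 : F) = 0 := by
      have h0 := FiniteField.cast_card_eq_zero F
      rw [hq] at h0; simpa using h0
    have hone : ∀ a : F, a ≠ 0 → a = 1 := fun a e => by
      have := FiniteField.pow_card_sub_one_eq_one a e
      rw [hq] at this; simpa using this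
    obtain ⟨w, hw, hwx, hwp⟩ : ∃ w ∈ X, w + x ≠ 0 ∧ QuadraticMap.polar Q w x = 0 ∧ w ≠ 0 := by
      obtain ⟨v, hv⟩ := (hQ.nondegenerate x hx0).2
      obtain ⟨w, hw, hw0, hxw, hvw⟩ := pick x v
      refine ⟨w, hw, fun e => hv ?_, by rw [QuadraticMap.polar_comm]; exact hxw, hw0⟩
      have hwe : w = (-1 : F) • x := by rw [neg_one_smul]; exact eq_neg_of_add_eq_zero_left e
      rw [hwe, hQ.polar_bilinear.smul_right] at hvw
      rw [QuadraticMap.polar_comm]
      exact (mul_eq_zero.1 hvw).resolve_left (neg_ne_zero.2 one_ne_zero)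
    exact hno (w + x) (add_mem hw hx) hwx (by
      rw [hsum _ _ hwp.1, hone _ (hno w hw hwp.2), hone _ qa]; linear_combination h20)
  · have h30 : (3 : F) = 0 := by
      have h0 := FiniteField.cast_card_eq_zero F
      rw [hq] at h0; simpa using h0
    have h2ne : (2 : F) ≠ 0 := fun e => one_ne_zero (α := F) (by linear_combination h30 - e)
    have hpm : ∀ a : F, a ≠ 0 → a = 1 ∨ a = -1 := fun a e => by
      have := FiniteField.pow_card_sub_one_eq_one a e
      rw [hq] at this
      exact mul_self_eq_one_iff.1 (by rw [← pow_two]; exact this)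
    have opp : ∀ u v, u ∈ X → v ∈ X → QuadraticMap.polar Q u v = 0 → Q u ≠ 0 → Q u + Q v = 0 → False := fun u v hu hv h hu0 e =>
      hno (u + v) (add_mem hu hv) (fun e' => h2ne (hne u v h hu0 e')) (by rw [hsum _ _ h, e])
    have hxy' : Q y = Q x := by
      rcases hpm _ qa with a | a <;> rcases hpm _ qb with b | b <;> rw [a, b] <;>
        exact (opp x y hx hy hxy qa (by rw [a, b]; ring)).elim
    have hxz' : Q z = Q x := by
      rcases hpm _ qa with a | a <;> rcases hpm _ qc with b | b <;> rw [a, b] <;>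
        exact (opp x z hx hz hxz qa (by rw [a, b]; ring)).elim
    have hp : QuadraticMap.polar Q (x + y) z = 0 := by rw [hQ.polar_bilinear.add_left, hxz, hyz, add_zero]
    have hq' : Q (x + y + z) = 0 := by rw [hsum _ _ hp, hsum _ _ hxy, hxy', hxz']; linear_combination (Q x) * h30
    refine hno (x + y + z) (add_mem (add_mem hx hy) hz) (fun e => h2ne (hne (x + y) z hp ?_ e)) hq'
    rw [hsum _ _ hxy, hxy', ← two_mul]
    exact mul_ne_zero h2ne qa

theorem exists_pair [Fintype F] (hQ : Cfsg.Geo.IsNondegenerateQuadraticForm Q) (hF : Fintype.card F ≤ 3)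
    {X : Submodule F (ι → F)} (hX : 3 ≤ Module.finrank F X) (hnd : Cfsg.Geo.IsNondegenerateOn (QuadraticMap.polar Q) X) :
    ∃ e ∈ X, ∃ f ∈ X, Q e = 0 ∧ Q f = 0 ∧ QuadraticMap.polar Q e f = 1 := by
  obtain ⟨z, hz, hz0, hqz⟩ := exists_singular hQ hF hX
  obtain ⟨y, hy, hne⟩ := (hnd z hz hz0).2
  obtain ⟨y', hy', h1⟩ : ∃ y' ∈ X, QuadraticMap.polar Q z y' = 1 :=
    ⟨(QuadraticMap.polar Q z y)⁻¹ • y, X.smul_mem _ hy, by rw [hQ.polar_bilinear.smul_right, inv_mul_cancel₀ hne]⟩
  refine ⟨z, hz, y' + (-Q y') • z, add_mem hy' (X.smul_mem _ hz), hqz, ?_, ?_⟩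
  · have h : QuadraticMap.polar Q y' ((-Q y') • z) = -Q y' := by
      rw [hQ.polar_bilinear.smul_right, QuadraticMap.polar_comm, h1, mul_one]
    have hs : Q ((-Q y') • z) = 0 := by rw [hQ.smul, hqz, mul_zero]
    simp only [QuadraticMap.polar] at h
    linear_combination h + hs
  · rw [hQ.polar_bilinear.add_right, hQ.polar_bilinear.smul_right, h1, polar_self hQ, hqz]
    ring

theorem exists_pair_pair [Fintype F] (hQ : Cfsg.Geo.IsNondegenerateQuadraticForm Q) (hF : Fintype.card F ≤ 3)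
    {X : Submodule F (ι → F)} (hX : 5 ≤ Module.finrank F X) (hnd : Cfsg.Geo.IsNondegenerateOn (QuadraticMap.polar Q) X) :
    ∃ e ∈ X, ∃ f ∈ X, ∃ e' ∈ X, ∃ f' ∈ X, Q e = 0 ∧ Q f = 0 ∧ QuadraticMap.polar Q e f = 1 ∧
      Q e' = 0 ∧ Q f' = 0 ∧ QuadraticMap.polar Q e' f' = 1 ∧ QuadraticMap.polar Q e e' = 0 ∧
      QuadraticMap.polar Q e f' = 0 ∧ QuadraticMap.polar Q f e' = 0 ∧ QuadraticMap.polar Q f f' = 0 := by
  obtain ⟨e, he, f, hf, hqe, hqf, hef⟩ := exists_pair hQ hF (by omega) hnd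
  have hB : Cfsg.Geo.IsBilinearForm (QuadraticMap.polar Q) := hQ.polar_bilinear
  have hee : QuadraticMap.polar Q e e = 0 := by rw [polar_self hQ, hqe, mul_zero]
  have hff : QuadraticMap.polar Q f f = 0 := by rw [polar_self hQ, hqf, mul_zero]
  have hfe : QuadraticMap.polar Q f e = 1 := by rw [QuadraticMap.polar_comm]; exact hef
  let Y := X ⊓ perp hQ (Submodule.span F {e, f})
  have hY : ∀ y, y ∈ Y ↔ y ∈ X ∧ QuadraticMap.polar Q e y = 0 ∧ QuadraticMap.polar Q f y = 0 := fun y => by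
    rw [Submodule.mem_inf, mem_perp]
    refine and_congr_right fun _ => ⟨fun h => ⟨h e (Submodule.subset_span (by simp)), h f (Submodule.subset_span (by simp))⟩, ?_⟩
    rintro ⟨h1, h2⟩ w hw
    obtain ⟨a, b, rfl⟩ := Submodule.mem_span_pair.1 hw
    rw [hB.add_left, hB.smul_left, hB.smul_left, h1, h2, mul_zero, mul_zero, add_zero]
  let proj := fun x => x + (-QuadraticMap.polar Q f x) • e + (-QuadraticMap.polar Q e x) • f
  have hproj : ∀ x ∈ X, proj x ∈ Y := fun x hx => (hY _).2 ⟨add_mem (add_mem hx (X.smul_mem _ he)) (X.smul_mem _ hf),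
    by simp only [proj, hB.add_right, hB.smul_right, hee, hef]; ring,
    by simp only [proj, hB.add_right, hB.smul_right, hfe, hff]; ring⟩
  have hle : X ≤ Y ⊔ Submodule.span F {e, f} := fun x hx =>
    Submodule.mem_sup.2 ⟨proj x, hproj x hx, QuadraticMap.polar Q f x • e + QuadraticMap.polar Q e x • f,
      Submodule.mem_span_pair.2 ⟨_, _, rfl⟩, by simp only [proj]; module⟩
  have hdim : 3 ≤ Module.finrank F Y := by
    have h1 := Submodule.finrank_mono hle
    have h2 := Submodule.finrank_add_le_finrank_add_finrank Y (Submodule.span F {e, f})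
    have h3 : Module.finrank F (Submodule.span F ({e, f} : Set (ι → F))) ≤ 2 := by
      classical
      refine (finrank_span_le_card _).trans ?_
      simp only [Set.toFinset_insert, Set.toFinset_singleton]
      exact Finset.card_le_two
    omega
  have hndY : Cfsg.Geo.IsNondegenerateOn (QuadraticMap.polar Q) Y := by
    intro w hw w0
    obtain ⟨hwX, h1, h2⟩ := (hY w).1 hw
    obtain ⟨x, hx, hne⟩ := (hnd w hwX w0).2
    have h : QuadraticMap.polar Q w (proj x) = QuadraticMap.polar Q w x := by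
      simp only [proj, hB.add_right, hB.smul_right, QuadraticMap.polar_comm Q w e, QuadraticMap.polar_comm Q w f, h1, h2]
      ring
    exact ⟨⟨proj x, hproj x hx, by rw [QuadraticMap.polar_comm, h]; exact hne⟩, proj x, hproj x hx, by rw [h]; exact hne⟩
  obtain ⟨e', he', f', hf', h4, h5, h6⟩ := exists_pair hQ hF hdim hndY
  obtain ⟨he'X, o1, o2⟩ := (hY e').1 he'
  obtain ⟨hf'X, o3, o4⟩ := (hY f').1 hf'
  exact ⟨e, he, f, hf, e', he'X, f', hf'X, hqe, hqf, hef, h4, h5, h6, o1, o3, o2, o4⟩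

end CfsgLib.NonMax.Complement
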