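import Mathlib
import Cfsg.Prelude.Def_GeometricClasses
import Cfsg.Agent.Lib.NonMax.Tools

/-! The number of non-zero components, read in the field, as an invariant of a decomposition stabiliser. -/
set_option autoImplicit false

namespace CfsgLib.NonMax.Count
open scoped Matrix
open CfsgLib.NonMax.Tools

variable {ι : Type} [Fintype ι] [DecidableEq ι] {F : Type*} [Field F] {t m : ℕ} {D : Fin t → Submodule F (ι → F)}

open Classical in
/-- number of non-zero components, in `F` -/
noncomputable def phi (hD : Cfsg.Geo.IsMDecomposition m D) (x : ι → F) : F :=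
  ∑ i, if comp hD i x = 0 then 0 else 1

/-- the subgroup preserving `phi` -/
noncomputable def phiGroup (hD : Cfsg.Geo.IsMDecomposition m D) : Subgroup (GL ι F) :=
  Cfsg.preserving (Cfsg.glToMat ι F) (fun u _ => phi hD u)

theorem mem_phiGroup (hD : Cfsg.Geo.IsMDecomposition m D) (g : GL ι F) :
    g ∈ phiGroup hD ↔ ∀ x, phi hD (g.1 *ᵥ x) = phi hD x :=
  ⟨fun h x => h x x, fun h x _ => h x⟩

theorem stab_le (hD : Cfsg.Geo.IsMDecomposition m D) : Cfsg.Geo.decompositionStabilizer D ≤ phiGroup hD := by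
  classical
  intro g hg
  rw [mem_phiGroup]
  intro x
  obtain ⟨σ, hσ⟩ := stab_perm hg
  unfold phi
  rw [← Equiv.sum_comp σ]
  refine Finset.sum_congr rfl fun i _ => ?_
  rw [comp_stab hD hσ]
  rcases eq_or_ne (comp hD i x) 0 with h | h
  · rw [h, Matrix.mulVec_zero]
  · rw [if_neg h, if_neg (mulVec_ne_zero g h)]

theorem phi_single (hD : Cfsg.Geo.IsMDecomposition m D) {x : ι → F} {i : Fin t} (hx : x ∈ D i) (h0 : x ≠ 0) :
    phi hD x = 1 := by
  classical
  unfold phi
  rw [Finset.sum_eq_single i]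
  · rw [comp_of_mem hD hx, if_pos rfl, if_neg h0]
  · intro j _ hj; rw [comp_of_mem hD hx, if_neg (Ne.symm hj), if_pos rfl]
  · simp

theorem phi_pair (hD : Cfsg.Geo.IsMDecomposition m D) {x y : ι → F} {i j : Fin t} (hij : i ≠ j) (hx : x ∈ D i)
    (hy : y ∈ D j) (hx0 : x ≠ 0) (hy0 : y ≠ 0) : phi hD (x + y) = 2 := by
  classical
  unfold phi
  have hc : ∀ k, comp hD k (x + y) = (if i = k then x else 0) + (if j = k then y else 0) := fun k => by
    rw [map_add, comp_of_mem hD hx, comp_of_mem hD hy]
  rw [← Finset.sum_subset (Finset.subset_univ {i, j})]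
  · rw [Finset.sum_pair hij, hc, hc, if_pos rfl, if_pos rfl, if_neg (Ne.symm hij), if_neg hij, add_zero, zero_add,
      if_neg hx0, if_neg hy0]
    norm_num
  · intro k _ hk
    simp only [Finset.mem_insert, Finset.mem_singleton, not_or] at hk
    rw [hc, if_neg (Ne.symm hk.1), if_neg (Ne.symm hk.2), add_zero, if_pos rfl]

/-- phi changes only through the perturbed components -/
theorem phi_add (hD : Cfsg.Geo.IsMDecomposition m D) (J : Finset (Fin t)) (x y : ι → F)
    (hy : ∀ i ∉ J, comp hD i y = 0) (f : (i : Fin t) → (ι → F) → F)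
    (hf : ∀ i ∈ J, ∀ v ∈ D i, f i v = (open Classical in if v = 0 then (0 : F) else 1))
    (heq : ∑ i ∈ J, f i (comp hD i x + comp hD i y) = ∑ i ∈ J, f i (comp hD i x)) :
    phi hD (x + y) = phi hD x := by
  classical
  unfold phi
  rw [← Finset.sum_compl_add_sum J, ← Finset.sum_compl_add_sum J (fun i => if comp hD i x = 0 then (0 : F) else 1)]
  refine congrArg₂ (· + ·) (Finset.sum_congr rfl fun i hi => ?_) ?_
  · rw [map_add, hy i (Finset.mem_compl.1 hi), add_zero]
  · refine (Finset.sum_congr rfl fun i hi => ?_).trans (heq.trans (Finset.sum_congr rfl fun i hi => ?_))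
    · rw [map_add, hf i hi _ (add_mem (comp_mem hD i x) (comp_mem hD i y))]
    · rw [hf i hi _ (comp_mem hD i x)]

end CfsgLib.NonMax.Count
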