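import Mathlib
import Cfsg.Prelude.Def_GeometricClasses
import Cfsg.Agent.Lib.NonMax.Tools
import Cfsg.Agent.Lib.NonMax.OmegaTools

/-! Imprimitive stabilisers in `Ω` in which every member has a canonical frame of one value are not maximal. -/
set_option autoImplicit false

namespace CfsgLib.NonMax.Frame
open scoped Matrix
open CfsgLib.NonMax.Tools CfsgLib.NonMax.OmegaTools

variable {ι : Type} [Fintype ι] [DecidableEq ι] {F : Type*} [Field F] [Finite F] {Q : (ι → F) → F} {t k : ℕ}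
  {D : Fin t → Submodule F (ι → F)}

/-- the members have a canonical frame of value `c` -/
def HasFrame (Q : (ι → F) → F) (W : Submodule F (ι → F)) (c : F) : Prop :=
  (∃ a ∈ W, Q a = c) ∧ ∀ a ∈ W, ∀ v ∈ W, Q a = c → Q v = c → QuadraticMap.polar Q a v = 0 ∨ v = a ∨ v = -a

omit [Finite F] in
theorem hasFrame_transport (hD : Cfsg.Geo.IsOrthogonalMDecomposition Q k D) {c : F} {i j : Fin t}
    (h : HasFrame Q (D i) c) : HasFrame Q (D j) c := by
  obtain ⟨e, he⟩ := hD.isometric j i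
  obtain ⟨⟨a, ha, hac⟩, h2⟩ := h
  refine ⟨⟨(e.symm ⟨a, ha⟩).1, (e.symm ⟨a, ha⟩).2, ?_⟩, fun x hx v hv hxc hvc => ?_⟩
  · rw [← he, LinearEquiv.apply_symm_apply]; exact hac
  · have hp : QuadraticMap.polar Q (e ⟨x, hx⟩ : ι → F) (e ⟨v, hv⟩) = QuadraticMap.polar Q x v := by
      have hs := he (⟨x, hx⟩ + ⟨v, hv⟩)
      rw [map_add] at hs
      simp only [Submodule.coe_add] at hs
      simp only [QuadraticMap.polar, hs, he ⟨x, hx⟩, he ⟨v, hv⟩]
    rcases h2 _ (e ⟨x, hx⟩).2 _ (e ⟨v, hv⟩).2 ((he ⟨x, hx⟩).trans hxc) ((he ⟨v, hv⟩).trans hvc) with h | h | h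
    · exact Or.inl (hp ▸ h)
    · exact Or.inr (Or.inl (congrArg Subtype.val (e.injective (Subtype.ext h : e ⟨v, hv⟩ = e ⟨x, hx⟩))))
    · refine Or.inr (Or.inr ?_)
      have h' : e ⟨v, hv⟩ = e (-⟨x, hx⟩) := by rw [map_neg]; exact Subtype.ext h
      exact congrArg Subtype.val (e.injective h')

theorem not_maximal (hQ : Cfsg.Geo.IsNondegenerateQuadraticForm Q) (h2 : (2 : F) ≠ 0)
    (hD : Cfsg.Geo.IsOrthogonalMDecomposition Q k D) (hk : 2 ≤ k) (ht : 5 ≤ t) {c : F} (hc : c ≠ 0)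
    (hfr : HasFrame Q (D ⟨0, by omega⟩) c) :
    ∃ K : Subgroup (GL ι F), Cfsg.Geo.decompositionStabilizer D ⊓ Cfsg.Geo.omegaGL Q < K ∧ K < Cfsg.Geo.omegaGL Q := by
  classical
  have hD' := hD.decomp.decomp
  have hB := hQ.polar_bilinear
  have hcomm : ∀ u v, QuadraticMap.polar Q u v = QuadraticMap.polar Q v u := QuadraticMap.polar_comm Q
  have hsum : ∀ u v, Q (u + v) = Q u + Q v + QuadraticMap.polar Q u v := fun u v => by
    simp only [QuadraticMap.polar]; ring
  have hneg : ∀ u, Q (-u) = Q u := fun u => by rw [← neg_one_smul F u, hQ.smul]; ring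
  have hBneg : ∀ u v, QuadraticMap.polar Q u (-v) = -QuadraticMap.polar Q u v := fun u v => by
    rw [← neg_one_smul F v, hB.smul_right]; ring
  have hall : ∀ i, HasFrame Q (D i) c := fun i => hasFrame_transport hD hfr
  let i : Fin 5 → Fin t := Fin.castLE ht
  have hi : Function.Injective i := Fin.castLE_injective ht
  choose a ha hac using fun j => (hall (i j)).1
  have ha0 : ∀ j, a j ≠ 0 := fun j e => hc (by rw [← hac j, e, ← zero_smul F (0 : ι → F), hQ.smul]; ring)
  have aa : ∀ j l, QuadraticMap.polar Q (a j) (a l) = if j = l then 2 * c else 0 := fun j l => by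
    split
    · next h => rw [← h, polar_self hQ, hac]
    · next h => exact hD.decomp.orthogonal _ _ (fun e => h (hi e)) _ (ha j) _ (ha l)
  have hout : ∀ j x, x ∈ D j → ∀ l, i l ≠ j → QuadraticMap.polar Q (a l) x = 0 := fun j x hx l h =>
    hD.decomp.orthogonal _ _ h _ (ha l) _ hx
  set u := a 0 + -a 1 with hu
  set v := a 2 + -a 3 with hv
  set u' := a 0 + a 1 + a 2 + a 3 with hu'
  set v' := (2 : F) • a 4 with hv'
  have qu : Q u = 2 * c := by simp [hu, hsum, hneg, hBneg, hac, aa]; ring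
  have qv : Q v = 2 * c := by simp [hv, hsum, hneg, hBneg, hac, aa]; ring
  have qu' : Q u' = 4 * c := by simp [hu', hsum, hB.add_left, hac, aa]; ring
  have qv' : Q v' = 4 * c := by simp [hv', hQ.smul, hac]; left; ring
  have h4 : (4 : F) * c ≠ 0 := by
    rw [show (4 : F) = 2 * 2 by norm_num]
    exact mul_ne_zero (mul_ne_zero h2 h2) hc
  have qu0 : Q u ≠ 0 := by rw [qu]; exact mul_ne_zero h2 hc
  have qu0' : Q u' ≠ 0 := by rw [qu']; exact h4
  have qd : Q (u - v) ≠ 0 := by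
    rw [sub_eq_add_neg, hsum, hneg, qu, qv, hBneg]
    simp only [hu, hv, hB.add_left, hB.add_right, hBneg, hcomm (-a 1), hcomm (-a 3), hcomm (a 2 + _), aa]
    simpa [← two_mul, show (2 : F) * (2 * c) = 4 * c by ring] using h4
  have qd' : Q (u' - v') ≠ 0 := by
    rw [sub_eq_add_neg, hsum, hneg, qu', qv', hBneg, hv', hB.smul_right, hu']
    simp only [hB.add_left, aa]
    simpa [show (4 : F) * c + 4 * c = 2 * (4 * c) by ring] using mul_ne_zero h2 h4
  have g1m := pair_mem hQ qu0 (qv.trans qu.symm) qd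
  set g1 := refl hQ qu0 * refl hQ ((qv.trans qu.symm) ▸ qu0 : Q v ≠ 0) with hg1
  have g2m := pair_mem hQ qu0' (qv'.trans qu'.symm) qd'
  set g2 := refl hQ qu0' * refl hQ ((qv'.trans qu'.symm) ▸ qu0' : Q v' ≠ 0) with hg2
  have g1a : ∀ l, g1.1 *ᵥ a l = a (Equiv.swap 2 3 (Equiv.swap 0 1 l)) := by
    intro l
    have hhalf : c⁻¹ * 2⁻¹ * (2 * c) = 1 := by field_simp
    rw [hg1, Units.val_mul, ← Matrix.mulVec_mulVec, refl_apply hQ _ (a l), Matrix.mulVec_sub, Matrix.mulVec_smul,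
      refl_fix hQ (a := u) (x := v) qu0 (by
        simp only [hu, hv, hB.add_left, hB.add_right, hBneg, hcomm (-a 1), hcomm (-a 3), hcomm (a 2 + _), aa]
        simp), refl_apply hQ _ (a l), qu, qv]
    simp only [hu, hv, hB.add_left, hcomm (-a 1), hcomm (-a 3), hBneg, aa]
    fin_cases l <;> simp [hhalf, Equiv.swap_apply_def, mul_neg, neg_smul]
    all_goals rfl
  have g1fix : ∀ j, ∀ x ∈ D j, (∀ l : Fin 4, QuadraticMap.polar Q (a l.castSucc) x = 0) → g1.1 *ᵥ x = x := by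
    intro j x _ h
    have h0 := h 0; have h1 := h 1; have h2' := h 2; have h3 := h 3
    simp at h0 h1 h2' h3
    rw [hg1, Units.val_mul, ← Matrix.mulVec_mulVec, refl_fix hQ (a := v) (x := x) _ (by
      rw [hv, hB.add_left, h2', hcomm, hBneg, hcomm, h3]; ring), refl_fix hQ (a := u) (x := x) _ (by
      rw [hu, hB.add_left, h0, hcomm, hBneg, hcomm, h1]; ring)]
  let U : Set (ι → F) := {x | Q x = c ∧ ∃ j, x ∈ D j}
  refine ⟨Cfsg.stabilizing (Cfsg.glToMat ι F) U ⊓ Cfsg.Geo.omegaGL Q, lt_and_lt (le_inf ?_ inf_le_right) inf_le_right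
    (x := g1) (y := g2) (Subgroup.mem_inf.2 ⟨mem_stabilizing ?_, g1m⟩) ?_ g2m ?_⟩
  · intro g hg
    obtain ⟨hgs, hgo⟩ := Subgroup.mem_inf.1 hg
    obtain ⟨σ, hσ⟩ := stab_perm hgs
    exact mem_stabilizing fun x ⟨hx, j, hj⟩ => ⟨(omega_preserves hgo x).trans hx, σ j, hσ j x hj⟩
  · rintro x ⟨hx, j, hj⟩
    refine ⟨(omega_preserves g1m x).trans hx, ?_⟩
    by_cases hall0 : ∀ l : Fin 4, QuadraticMap.polar Q (a l.castSucc) x = 0
    · exact ⟨j, (g1fix j x hj hall0).symm ▸ hj⟩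
    · push Not at hall0
      obtain ⟨l, hl⟩ := hall0
      have hjl : i l.castSucc = j := by_contra fun e => hl (hout j x hj _ e)
      subst hjl
      rcases (hall _).2 _ (ha l.castSucc) x hj (hac _) hx with e | e | e
      · exact absurd e hl
      · exact ⟨_, by rw [e, g1a]; exact ha _⟩
      · exact ⟨_, by rw [e, Matrix.mulVec_neg, g1a]; exact neg_mem (ha _)⟩
  · intro h
    obtain ⟨σ, hσ⟩ := stab_perm (Subgroup.mem_inf.1 h).1
    obtain ⟨x, hx, hx0, hxa⟩ : ∃ x ∈ D (i 0), x ≠ 0 ∧ QuadraticMap.polar Q (a 0) x = 0 := by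
      obtain ⟨x, hx, hxn⟩ : ∃ x ∈ D (i 0), x ∉ Submodule.span F {a 0} := by
        by_contra hno
        push Not at hno
        have := Submodule.finrank_mono (show D (i 0) ≤ Submodule.span F {a 0} from hno)
        rw [hD'.finrank_eq, finrank_span_singleton (ha0 _)] at this
        omega
      set r := (2 * c)⁻¹ * QuadraticMap.polar Q (a 0) x with hr
      refine ⟨x + (-r) • a 0, add_mem hx (Submodule.smul_mem _ _ (ha 0)), fun e => hxn ?_, ?_⟩
      · rw [eq_neg_of_add_eq_zero_left e, ← neg_smul]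
        exact Submodule.smul_mem _ _ (Submodule.mem_span_singleton_self _)
      · rw [hB.add_right, hB.smul_right, aa, if_pos rfl, hr]
        field_simp
        ring
    have e1 := hσ (i 0) _ (ha 0)
    have e2 := hσ (i 0) x hx
    rw [g1fix _ x hx (fun l => by
      rcases eq_or_ne l 0 with rfl | hl
      · exact hxa
      · exact hout _ x hx _ (fun e => hl (by simpa using hi e)))] at e2
    rw [g1a, show (Equiv.swap 2 3 (Equiv.swap 0 1 (0 : Fin 5))) = 1 by decide] at e1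
    by_cases hs : σ (i 0) = i 0
    · have c1 := comp_of_mem hD' e1 (i 1)
      rw [comp_of_mem hD' (ha 1), if_pos rfl, hs, if_neg (fun e => by simpa using hi e)] at c1
      exact ha0 1 c1
    · have c2 := comp_of_mem hD' e2 (i 0)
      rw [comp_of_mem hD' hx, if_pos rfl, if_neg hs] at c2
      exact hx0 c2
  · intro h
    obtain ⟨-, j, hj⟩ := (((Subgroup.mem_inf.1 h).1 (a 0))).1 ⟨hac 0, i 0, ha 0⟩
    have e : g2.1 *ᵥ a 0 = a 0 + (-((4 * c)⁻¹ * (2 * c))) • u' := by
      rw [hg2, Units.val_mul, ← Matrix.mulVec_mulVec, refl_fix hQ (a := v') (x := a 0) _ (by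
        rw [hv', hB.smul_left, aa, if_neg (by decide), mul_zero]), refl_apply, qu', neg_smul, ← sub_eq_add_neg]
      congr 3
      simp [hu', hB.add_left, aa]
    rw [show Cfsg.glToMat ι F g2 *ᵥ a 0 = g2.1 *ᵥ a 0 from rfl, e] at hj
    refine not_mem_of_comp hD' (i := i 1) (j := i 2) (fun e => by simpa using hi e) ?_ ?_ j hj
    · simp [hu', comp_of_mem hD' (ha _), hi.eq_iff, ha0, mul_ne_zero, h2, hc, show (4 : F) ≠ 0 from left_ne_zero_of_mul h4]
    · simp [hu', comp_of_mem hD' (ha _), hi.eq_iff, ha0, mul_ne_zero, h2, hc, show (4 : F) ≠ 0 from left_ne_zero_of_mul h4]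

end CfsgLib.NonMax.Frame
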