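import Mathlib
import Cfsg.Prelude.Def_GeometricClasses
import Cfsg.Agent.Lib.NonMax.OmegaTools
import Cfsg.Agent.Lib.NonMax.Frame

/-! Canonical frames in small orthogonal spaces over fields with three or five elements. -/
set_option autoImplicit false

namespace CfsgLib.NonMax.FrameExists
open CfsgLib.NonMax.OmegaTools CfsgLib.NonMax.Frame

variable {ι : Type} [Fintype ι] [DecidableEq ι] {F : Type*} [Field F] {Q : (ι → F) → F} {W : Submodule F (ι → F)}

omit [Fintype ι] [DecidableEq ι] in
theorem q_add (u v : ι → F) : Q (u + v) = Q u + Q v + QuadraticMap.polar Q u v := by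
  simp only [QuadraticMap.polar]; ring

theorem exists_aniso (hQ : Cfsg.Geo.IsNondegenerateQuadraticForm Q) (hW : Cfsg.Geo.IsNondegenerateOn (QuadraticMap.polar Q) W)
    (h0 : 0 < Module.finrank F W) : ∃ a ∈ W, Q a ≠ 0 := by
  by_contra hno
  push Not at hno
  obtain ⟨v, hv, hv0⟩ := Submodule.exists_mem_ne_zero_of_ne_bot (p := W) (fun h => by rw [h, finrank_bot] at h0; omega)
  obtain ⟨x, hx, hne⟩ := (hW v hv hv0).2
  apply hne
  have := q_add (Q := Q) v x
  rw [hno v hv, hno x hx, hno _ (add_mem hv hx)] at this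
  linear_combination -this

/-- a vector orthogonal to a spanning pair is zero -/
theorem perp_zero (hQ : Cfsg.Geo.IsNondegenerateQuadraticForm Q) (h2 : (2 : F) ≠ 0)
    (hW : Cfsg.Geo.IsNondegenerateOn (QuadraticMap.polar Q) W) (hd : Module.finrank F W = 2) {a v : ι → F}
    (ha : a ∈ W) (hv : v ∈ W) (hqa : Q a ≠ 0) (hav : QuadraticMap.polar Q a v = 0) (hqv : Q v = 0) : v = 0 := by
  by_contra hv0
  have hB := hQ.polar_bilinear
  have haa : QuadraticMap.polar Q a a ≠ 0 := by rw [polar_self hQ]; exact mul_ne_zero h2 hqa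
  have hli : LinearIndependent F ![a, v] := by
    rw [LinearIndependent.pair_iff]
    intro s r hsr
    have h := congrArg (QuadraticMap.polar Q a) hsr
    rw [hB.add_right, hB.smul_right, hB.smul_right, hav, ← zero_smul F a, hB.smul_right, mul_zero, add_zero, zero_mul] at h
    have hs : s = 0 := (mul_eq_zero.1 h).resolve_right haa
    subst hs
    simp only [zero_smul, zero_add, smul_eq_zero] at hsr
    exact ⟨rfl, hsr.resolve_right hv0⟩
  have hle : Submodule.span F {a, v} ≤ W := Submodule.span_le.2 fun y hy => by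
    rcases hy with rfl | rfl <;> assumption
  have hfr : Module.finrank F (Submodule.span F ({a, v} : Set (ι → F))) = 2 := by
    have := finrank_span_eq_card hli
    rw [Matrix.range_cons_cons_empty, Fintype.card_fin] at this
    exact this
  obtain ⟨x, hx, hne⟩ := (hW v hv hv0).1
  rw [← Submodule.eq_of_le_of_finrank_eq hle (hfr.trans hd.symm), Submodule.mem_span_pair] at hx
  obtain ⟨s, r, rfl⟩ := hx
  apply hne
  rw [hB.add_left, hB.smul_left, hB.smul_left, hav, polar_self hQ, hqv]
  ring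

theorem three_facts [Fintype F] (hq : Fintype.card F = 3) :
    (3 : F) = 0 ∧ (2 : F) ≠ 0 ∧ ∀ a : F, a = 0 ∨ a = 1 ∨ a = -1 := by
  have h0 := FiniteField.cast_card_eq_zero F
  rw [hq] at h0
  have h3 : (3 : F) = 0 := by simpa using h0
  refine ⟨h3, fun e => one_ne_zero (α := F) (by linear_combination h3 - e), fun a => ?_⟩
  rcases eq_or_ne a 0 with e | e
  · exact Or.inl e
  · have := FiniteField.pow_card_sub_one_eq_one a e
    rw [hq] at this
    exact Or.inr (mul_self_eq_one_iff.1 (by rw [← pow_two]; exact this))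

theorem frame_three_two [Fintype F] (hq : Fintype.card F = 3) (hQ : Cfsg.Geo.IsNondegenerateQuadraticForm Q)
    (hW : Cfsg.Geo.IsNondegenerateOn (QuadraticMap.polar Q) W) (hd : Module.finrank F W = 2) :
    ∃ c ≠ 0, HasFrame Q W c := by
  obtain ⟨h3, h2, hel⟩ := three_facts hq
  have hsq : ∀ x : F, x ≠ 0 → x * x = 1 := fun x hx => by
    rcases hel x with e | e | e
    · exact absurd e hx
    · rw [e]; ring
    · rw [e]; ring
  have hB := hQ.polar_bilinear
  obtain ⟨a₀, ha₀, hc⟩ := exists_aniso hQ hW (by omega)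
  refine ⟨Q a₀, hc, ⟨a₀, ha₀, rfl⟩, fun a ha v hv hqa hqv => ?_⟩
  set c := Q a₀
  set β := QuadraticMap.polar Q a v with hβ
  rcases eq_or_ne β 0 with e | e
  · exact Or.inl e
  refine Or.inr ?_
  have hcc := hsq c hc
  have hbb := hsq β e
  have h := perp_zero hQ h2 hW hd ha (add_mem hv (W.smul_mem (β * c) ha)) (by rw [hqa]; exact hc)
    (by rw [hB.add_right, hB.smul_right, polar_self hQ, ← hβ, hqa]; linear_combination (2 * β) * hcc + β * h3)
    (by rw [q_add (Q := Q), hQ.smul, hB.smul_right, QuadraticMap.polar_comm, ← hβ, hqa, hqv]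
        linear_combination (β ^ 2 * c) * hcc + (2 * c) * hbb + c * h3)
  rw [eq_neg_of_add_eq_zero_left h]
  rcases hel (β * c) with e' | e' | e' <;> rw [e']
  · exact absurd e' (mul_ne_zero e hc)
  · right; rw [one_smul]
  · left; rw [neg_one_smul, neg_neg]

theorem frame_three_three [Fintype F] (hq : Fintype.card F = 3) (hQ : Cfsg.Geo.IsNondegenerateQuadraticForm Q)
    (hW : Cfsg.Geo.IsNondegenerateOn (QuadraticMap.polar Q) W) (hd : Module.finrank F W = 3) :
    ∃ c ≠ 0, HasFrame Q W c := by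
  classical
  obtain ⟨h3, h2, hel⟩ := three_facts hq
  have hB := hQ.polar_bilinear
  have hcomm : ∀ u v, QuadraticMap.polar Q u v = QuadraticMap.polar Q v u := QuadraticMap.polar_comm Q
  have hself : ∀ u, QuadraticMap.polar Q u u = 2 * Q u := polar_self hQ
  obtain ⟨x, hx, hqx⟩ := exists_aniso hQ hW (by omega)
  let Y := W ⊓ LinearMap.ker (QuadraticMap.polarBilin (toQ hQ) x)
  have hY : ∀ y, y ∈ Y ↔ y ∈ W ∧ QuadraticMap.polar Q x y = 0 := fun y => Iff.rfl
  set r := (2 * Q x)⁻¹ with hr
  have hrx : r * (2 * Q x) = 1 := inv_mul_cancel₀ (mul_ne_zero h2 hqx)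
  let pr := fun y => y + (-(r * QuadraticMap.polar Q x y)) • x
  have hpr : ∀ y ∈ W, pr y ∈ Y := fun y hy => (hY _).2 ⟨add_mem hy (W.smul_mem _ hx), by
    simp only [pr, hB.add_right, hB.smul_right, hself]
    linear_combination (-QuadraticMap.polar Q x y) * hrx⟩
  have hndY : Cfsg.Geo.IsNondegenerateOn (QuadraticMap.polar Q) Y := by
    intro w hw w0
    obtain ⟨hwW, hxw⟩ := (hY w).1 hw
    obtain ⟨z, hz, hne⟩ := (hW w hwW w0).2
    have h : QuadraticMap.polar Q w (pr z) = QuadraticMap.polar Q w z := by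
      simp only [pr, hB.add_right, hB.smul_right, hcomm w x, hxw]; ring
    exact ⟨⟨pr z, hpr z hz, by rw [hcomm, h]; exact hne⟩, pr z, hpr z hz, by rw [h]; exact hne⟩
  have hdY : 2 ≤ Module.finrank F Y := by
    have h1 := Submodule.finrank_mono (show W ≤ Y ⊔ Submodule.span F {x} from fun y hy =>
      Submodule.mem_sup.2 ⟨pr y, hpr y hy, (r * QuadraticMap.polar Q x y) • x,
        Submodule.smul_mem _ _ (Submodule.mem_span_singleton_self x), by simp only [pr]; module⟩)
    have h2' := Submodule.finrank_add_le_finrank_add_finrank Y (Submodule.span F {x})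
    have h3' : Module.finrank F (Submodule.span F ({x} : Set (ι → F))) ≤ 1 := by
      refine (finrank_span_le_card _).trans ?_
      simp
    omega
  obtain ⟨y, hyY, hqy⟩ := exists_aniso hQ hndY (by omega)
  obtain ⟨hy, hxy⟩ := (hY y).1 hyY
  obtain ⟨w, hwY, hwn⟩ : ∃ w ∈ Y, w ∉ Submodule.span F {y} := by
    by_contra hno
    push Not at hno
    have h1 := Submodule.finrank_mono (show Y ≤ Submodule.span F {y} from hno)
    have h3' : Module.finrank F (Submodule.span F ({y} : Set (ι → F))) ≤ 1 := by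
      refine (finrank_span_le_card _).trans ?_
      simp
    omega
  set z := w + (-((2 * Q y)⁻¹ * QuadraticMap.polar Q y w)) • y with hz
  have hzY : z ∈ Y := add_mem hwY (Y.smul_mem _ hyY)
  have hyz : QuadraticMap.polar Q y z = 0 := by
    rw [hz, hB.add_right, hB.smul_right, hself]
    linear_combination (-QuadraticMap.polar Q y w) * inv_mul_cancel₀ (mul_ne_zero h2 hqy)
  have hz0 : z ≠ 0 := fun e => hwn (by
    rw [eq_neg_of_add_eq_zero_left (hz ▸ e : w + _ = 0), ← neg_smul]
    exact Submodule.smul_mem _ _ (Submodule.mem_span_singleton_self _))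
  obtain ⟨hzW, hxz⟩ := (hY z).1 hzY
  -- spanning
  have hindep : ∀ s t u : F, s • x + t • y + u • z = 0 → s = 0 ∧ t = 0 ∧ u = 0 := by
    intro s t u h
    have h0 : ∀ v, QuadraticMap.polar Q v (0 : ι → F) = 0 := fun v => by rw [← zero_smul F x, hB.smul_right, zero_mul]
    have e1 := congrArg (QuadraticMap.polar Q x) h
    have e2 := congrArg (QuadraticMap.polar Q y) h
    simp only [hB.add_right, hB.smul_right, hself, hxy, hxz, hcomm y x, hyz, h0, mul_zero, add_zero, zero_add] at e1 e2
    have hs : s = 0 := (mul_eq_zero.1 e1).resolve_right (mul_ne_zero h2 hqx)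
    have ht : t = 0 := (mul_eq_zero.1 e2).resolve_right (mul_ne_zero h2 hqy)
    subst hs ht
    simp only [zero_smul, zero_add, smul_eq_zero] at h
    exact ⟨rfl, rfl, h.resolve_right hz0⟩
  have hspan : ∀ v ∈ W, ∃ s t u : F, v = s • x + t • y + u • z := by
    have hli : LinearIndependent F ![x, y, z] := by
      rw [Fintype.linearIndependent_iff]
      intro g hg i
      rw [Fin.sum_univ_three] at hg
      obtain ⟨a, b, c⟩ := hindep (g 0) (g 1) (g 2) (by simpa using hg)
      fin_cases i <;> assumption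
    have hle : Submodule.span F (Set.range ![x, y, z]) ≤ W := Submodule.span_le.2 fun v hv => by
      obtain ⟨i, rfl⟩ := hv
      fin_cases i <;> assumption
    intro v hv
    rw [← Submodule.eq_of_le_of_finrank_eq hle (by rw [finrank_span_eq_card hli, hd, Fintype.card_fin])] at hv
    obtain ⟨g, hg⟩ := (Submodule.mem_span_range_iff_exists_fun F).1 hv
    exact ⟨g 0, g 1, g 2, by rw [← hg, Fin.sum_univ_three]; simp⟩
  have hqz : Q z ≠ 0 := by
    intro e
    obtain ⟨v, hv, hne⟩ := (hW z hzW hz0).1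
    obtain ⟨s, t, u, rfl⟩ := hspan v hv
    apply hne
    simp only [hB.add_left, hB.smul_left, hxz, hyz, hself, e]
    ring
  have hQ' : ∀ s t u : F, Q (s • x + t • y + u • z) = s ^ 2 * Q x + t ^ 2 * Q y + u ^ 2 * Q z := fun s t u => by
    rw [q_add (Q := Q), q_add (Q := Q), hQ.smul, hQ.smul, hQ.smul, hB.add_left, hB.smul_left, hB.smul_left, hB.smul_right,
      hB.smul_left, hB.smul_right, hB.smul_right, hxy, hxz, hyz]
    ring
  -- an orthogonal basis of one value
  obtain ⟨X, Y', Z, c, hc, hX, hY', hZ, qX, qY, qZ, pXY, pXZ, pYZ, hsp⟩ : ∃ X Y' Z : ι → F, ∃ c : F, c ≠ 0 ∧ X ∈ W ∧ Y' ∈ W ∧ Z ∈ W ∧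
      Q X = c ∧ Q Y' = c ∧ Q Z = c ∧ QuadraticMap.polar Q X Y' = 0 ∧ QuadraticMap.polar Q X Z = 0 ∧ QuadraticMap.polar Q Y' Z = 0 ∧
      ∀ v ∈ W, ∃ s t u : F, v = s • X + t • Y' + u • Z := by
    have opp : ∀ a b : F, a ≠ 0 → b ≠ 0 → b = a ∨ b = -a := fun a b ha hb => by
      rcases hel a with e | e | e <;> rcases hel b with e' | e' | e' <;> first | exact absurd e ha | exact absurd e' hb | simp [e, e']
    -- change basis: if `Q a = Q b`, replace them by `a + b`, `a - b`
    have change : ∀ a b w : ι → F, a ∈ W → b ∈ W → w ∈ W → QuadraticMap.polar Q a b = 0 → QuadraticMap.polar Q a w = 0 →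
        QuadraticMap.polar Q b w = 0 → Q b = Q a → Q w = -Q a → Q a ≠ 0 → (∀ v ∈ W, ∃ s t u : F, v = s • a + t • b + u • w) →
        ∃ X Y' Z : ι → F, ∃ c : F, c ≠ 0 ∧ X ∈ W ∧ Y' ∈ W ∧ Z ∈ W ∧
        Q X = c ∧ Q Y' = c ∧ Q Z = c ∧ QuadraticMap.polar Q X Y' = 0 ∧ QuadraticMap.polar Q X Z = 0 ∧ QuadraticMap.polar Q Y' Z = 0 ∧
        ∀ v ∈ W, ∃ s t u : F, v = s • X + t • Y' + u • Z := by
      intro a b w ha hb hw pab paw pbw qb qw qa hs
      refine ⟨a + b, a + (-1 : F) • b, w, -Q a, neg_ne_zero.2 qa, add_mem ha hb, add_mem ha (W.smul_mem _ hb), hw, ?_, ?_, qw, ?_, ?_, ?_, ?_⟩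
      · rw [q_add (Q := Q), qb, pab]; linear_combination Q a * h3
      · rw [q_add (Q := Q), hQ.smul, hB.smul_right, qb, pab]; linear_combination Q a * h3
      · simp only [hB.add_left, hB.add_right, hB.smul_right, hself, pab, hcomm b a, qb]; ring
      · rw [hB.add_left, paw, pbw, add_zero]
      · rw [hB.add_left, hB.smul_left, paw, pbw]; ring
      · intro v hv
        obtain ⟨s, t, u, rfl⟩ := hs v hv
        refine ⟨(s + t) * 2⁻¹, (s - t) * 2⁻¹, u, ?_⟩
        have e1 : (s + t) * 2⁻¹ + (s - t) * 2⁻¹ = s := by linear_combination s * mul_inv_cancel₀ h2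
        have e2 : (s + t) * 2⁻¹ - (s - t) * 2⁻¹ = t := by linear_combination t * mul_inv_cancel₀ h2
        match_scalars
        · linear_combination -e1
        · linear_combination -e2
        all_goals ring
    rcases opp _ _ hqx hqy with ey | ey <;> rcases opp _ _ hqx hqz with ez | ez
    · exact ⟨x, y, z, Q x, hqx, hx, hy, hzW, rfl, ey, ez, hxy, hxz, hyz, hspan⟩
    · exact change x y z hx hy hzW hxy hxz hyz ey ez hqx hspan
    · refine change x z y hx hzW hy hxz hxy ((hcomm z y).trans hyz) ez ey hqx fun v hv => ?_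
      obtain ⟨s, t, u, rfl⟩ := hspan v hv
      exact ⟨s, u, t, by abel⟩
    · refine change y z x hy hzW hx hyz ((hcomm y x).trans hxy) ((hcomm z x).trans hxz) (ez.trans ey.symm) (by rw [ey]; ring) hqy fun v hv => ?_
      obtain ⟨s, t, u, rfl⟩ := hspan v hv
      exact ⟨t, u, s, by abel⟩
  refine ⟨c, hc, ⟨X, hX, qX⟩, ?_⟩
  have six : ∀ v ∈ W, Q v = c → v = X ∨ v = -X ∨ v = Y' ∨ v = -Y' ∨ v = Z ∨ v = -Z := by
    intro v hv hqv
    obtain ⟨s, t, u, rfl⟩ := hsp v hv
    rw [q_add (Q := Q), q_add (Q := Q), hQ.smul, hQ.smul, hQ.smul, hB.add_left, hB.smul_left, hB.smul_left, hB.smul_right,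
      hB.smul_left, hB.smul_right, hB.smul_right, pXY, pXZ, pYZ, qX, qY, qZ] at hqv
    have hsum : s ^ 2 + t ^ 2 + u ^ 2 = 1 := mul_right_cancel₀ hc (by linear_combination hqv)
    rcases hel s with rfl | rfl | rfl <;> rcases hel t with rfl | rfl | rfl <;> rcases hel u with rfl | rfl | rfl <;>
      first
        | (simp; done)
        | (exfalso; apply one_ne_zero (α := F); linear_combination hsum)
        | (exfalso; apply one_ne_zero (α := F); linear_combination -hsum)
        | (exfalso; apply one_ne_zero (α := F); linear_combination h3 - hsum)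
        | (exfalso; apply one_ne_zero (α := F); linear_combination hsum - h3)
  have hneg : ∀ u v, QuadraticMap.polar Q u (-v) = -QuadraticMap.polar Q u v := fun u v => by
    rw [← neg_one_smul F v, hB.smul_right]; ring
  have hneg' : ∀ u v, QuadraticMap.polar Q (-u) v = -QuadraticMap.polar Q u v := fun u v => by
    rw [← neg_one_smul F u, hB.smul_left]; ring
  intro a ha v hv hqa hqv
  rcases six a ha hqa with e | e | e | e | e | e <;>
    rcases six v hv hqv with e' | e' | e' | e' | e' | e' <;>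
    rw [e, e'] <;>
    simp [hneg, hneg', pXY, pXZ, pYZ, hcomm Y' X, hcomm Z X, hcomm Z Y']

theorem frame_five_plus [Fintype F] (hq : Fintype.card F = 5) (hQ : Cfsg.Geo.IsNondegenerateQuadraticForm Q)
    (hW : Cfsg.Geo.IsNondegenerateOn (QuadraticMap.polar Q) W) (hd : Module.finrank F W = 2)
    (hplus : Cfsg.Geo.IsPlusTypeOn Q W) : ∃ c ≠ 0, HasFrame Q W c := by
  have hB := hQ.polar_bilinear
  have h5 : (5 : F) = 0 := by
    have h0 := FiniteField.cast_card_eq_zero F
    rw [hq] at h0; simpa using h0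
  have h2 : (2 : F) ≠ 0 := fun e => one_ne_zero (α := F) (by linear_combination h5 - 2 * e)
  obtain ⟨U, hUW, hUs, hUd⟩ := hplus
  obtain ⟨e, heU, he0⟩ := Submodule.exists_mem_ne_zero_of_ne_bot (p := U) (fun h => by
    rw [h, finrank_bot, hd] at hUd; omega)
  have heW := hUW heU
  have hqe := hUs e heU
  have hee : QuadraticMap.polar Q e e = 0 := by rw [polar_self hQ, hqe, mul_zero]
  obtain ⟨y₀, hy₀, hne⟩ := (hW e heW he0).2
  obtain ⟨y, hy, hey⟩ : ∃ y ∈ W, QuadraticMap.polar Q e y = 1 :=
    ⟨(QuadraticMap.polar Q e y₀)⁻¹ • y₀, W.smul_mem _ hy₀, by rw [hB.smul_right, inv_mul_cancel₀ hne]⟩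
  obtain ⟨f, hf, hqf, hef⟩ : ∃ f ∈ W, Q f = 0 ∧ QuadraticMap.polar Q e f = 1 := by
    refine ⟨y + (-Q y) • e, add_mem hy (W.smul_mem _ heW), ?_, ?_⟩
    · rw [q_add (Q := Q), hB.smul_right, QuadraticMap.polar_comm Q y e, hey, hQ.smul, hqe]; ring
    · rw [hB.add_right, hB.smul_right, hey, hee]; ring
  have hff : QuadraticMap.polar Q f f = 0 := by rw [polar_self hQ, hqf, mul_zero]
  refine ⟨1, one_ne_zero, ⟨e + f, add_mem heW hf, by rw [q_add (Q := Q), hqe, hqf, hef]; ring⟩, fun a ha v hv hqa hqv => ?_⟩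
  have hspan : ∀ w ∈ W, ∃ s r : F, w = s • e + r • f := by
    have hli : LinearIndependent F ![e, f] := by
      rw [LinearIndependent.pair_iff]
      intro s r hsr
      have h1 := congrArg (QuadraticMap.polar Q e) hsr
      have h2' := congrArg (QuadraticMap.polar Q f) hsr
      have h0 : ∀ u, QuadraticMap.polar Q u (0 : ι → F) = 0 := fun u => by rw [← zero_smul F e, hB.smul_right, zero_mul]
      simp only [hB.add_right, hB.smul_right, hee, hef, hff, QuadraticMap.polar_comm Q f e, h0] at h1 h2'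
      exact ⟨by linear_combination h2', by linear_combination h1⟩
    have hle : Submodule.span F {e, f} ≤ W := Submodule.span_le.2 fun z hz => by
      rcases hz with rfl | rfl <;> assumption
    have hfr : Module.finrank F (Submodule.span F ({e, f} : Set (ι → F))) = 2 := by
      have := finrank_span_eq_card hli
      rw [Matrix.range_cons_cons_empty, Fintype.card_fin] at this
      exact this
    intro w hw
    rw [← Submodule.eq_of_le_of_finrank_eq hle (hfr.trans hd.symm), Submodule.mem_span_pair] at hw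
    obtain ⟨s, r, h⟩ := hw
    exact ⟨s, r, h.symm⟩
  obtain ⟨s, r, rfl⟩ := hspan a ha
  obtain ⟨s', r', rfl⟩ := hspan v hv
  rw [q_add (Q := Q), hQ.smul, hQ.smul, hqe, hqf, hB.smul_left, hB.smul_right, hef] at hqa hqv
  have hsr : s * r = 1 := by linear_combination hqa
  have hsr' : s' * r' = 1 := by linear_combination hqv
  set l := s' * r with hl
  have hs' : s' = l * s := by rw [hl]; linear_combination (-s') * hsr
  have hr : r = l * r' := by rw [hl]; linear_combination (-r) * hsr'
  have hl0 : l ≠ 0 := mul_ne_zero (left_ne_zero_of_mul_eq_one hsr') (right_ne_zero_of_mul_eq_one hsr)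
  have hl4 : l ^ 4 = 1 := by
    have := FiniteField.pow_card_sub_one_eq_one l hl0
    rwa [hq] at this
  rcases mul_eq_zero.1 (show (l * l - 1) * (l * l + 1) = 0 by linear_combination hl4) with h | h
  · right
    rcases mul_self_eq_one_iff.1 (sub_eq_zero.1 h) with e1 | e1 <;> rw [e1] at hs' hr
    · left; rw [hs', hr]; simp
    · right; rw [hs', hr]; simp; abel
  · left
    simp only [hB.add_left, hB.add_right, hB.smul_left, hB.smul_right, hee, hef, hff, QuadraticMap.polar_comm Q f e]
    linear_combination (s * r') * h + s' * hr + (r' * l) * hs'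

end CfsgLib.NonMax.FrameExists
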