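import Mathlib
import Cfsg.Prelude.Def_GeometricClasses
import Cfsg.Agent.Lib.NonMax.Tools
import Cfsg.Agent.Lib.NonMax.OmegaTools
import Cfsg.Agent.Lib.NonMax.Complement

/-! Over two elements: decompositions into plus-type four-spaces, each the sum of two minus-type planes. -/
set_option autoImplicit false

namespace CfsgLib.NonMax.MinusPairs
open scoped Matrix
open CfsgLib.NonMax.Tools CfsgLib.NonMax.OmegaTools CfsgLib.NonMax.Complement

variable {ι : Type} [Fintype ι] [DecidableEq ι] {F : Type*} [Field F] [Fintype F] {Q : (ι → F) → F}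
  {W : Submodule F (ι → F)}

theorem two_facts (hq : Fintype.card F = 2) : (2 : F) = 0 ∧ ∀ a : F, a = 0 ∨ a = 1 := by
  have h0 := FiniteField.cast_card_eq_zero F
  rw [hq] at h0
  refine ⟨by simpa using h0, fun a => ?_⟩
  rcases eq_or_ne a 0 with e | e
  · exact Or.inl e
  · have := FiniteField.pow_card_sub_one_eq_one a e
    rw [hq] at this
    exact Or.inr (by simpa using this)

theorem exists_minus_pair (hq : Fintype.card F = 2) (hQ : Cfsg.Geo.IsNondegenerateQuadraticForm Q)
    (hW : Cfsg.Geo.IsNondegenerateOn (QuadraticMap.polar Q) W) (hd : Module.finrank F W = 4) :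
    ∃ x ∈ W, ∃ y ∈ W, Q x = 1 ∧ Q y = 1 ∧ QuadraticMap.polar Q x y = 1 := by
  obtain ⟨h2, hel⟩ := two_facts hq
  have hB := hQ.polar_bilinear
  have hsum : ∀ u v, Q (u + v) = Q u + Q v + QuadraticMap.polar Q u v := fun u v => by
    simp only [QuadraticMap.polar]; ring
  have hcomm : ∀ u v, QuadraticMap.polar Q u v = QuadraticMap.polar Q v u := QuadraticMap.polar_comm Q
  obtain ⟨e, he, f, hf, hqe, hqf, hef⟩ := exists_pair hQ (by omega) (by omega : 3 ≤ Module.finrank F W) hW
  have hee : QuadraticMap.polar Q e e = 0 := by rw [polar_self hQ, hqe, mul_zero]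
  have hff : QuadraticMap.polar Q f f = 0 := by rw [polar_self hQ, hqf, mul_zero]
  have hfe : QuadraticMap.polar Q f e = 1 := (hcomm f e).trans hef
  let φ : W →ₗ[F] F × F := ((QuadraticMap.polarBilin (toQ hQ) e).prod (QuadraticMap.polarBilin (toQ hQ) f)).comp W.subtype
  obtain ⟨u, hu, hu0⟩ := Submodule.exists_mem_ne_zero_of_ne_bot (p := φ.ker) (fun h => by
    have h1 := φ.finrank_range_add_finrank_ker
    rw [h, finrank_bot, add_zero] at h1
    have h2' := φ.range.finrank_le
    rw [Module.finrank_prod, Module.finrank_self, h1, hd] at h2'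
    omega)
  rw [LinearMap.mem_ker] at hu
  have heu : QuadraticMap.polar Q e u = 0 := congrArg Prod.fst hu
  have hfu : QuadraticMap.polar Q f u = 0 := congrArg Prod.snd hu
  obtain ⟨z, hz, hqz, hez, hfz⟩ : ∃ z ∈ W, Q z = 1 ∧ QuadraticMap.polar Q e z = 0 ∧ QuadraticMap.polar Q f z = 0 := by
    rcases hel (Q u) with hqu | hqu
    · obtain ⟨w, hw, hne⟩ := (hW u u.2 fun h => hu0 (Subtype.ext h)).2
      set w' := w + QuadraticMap.polar Q f w • e + QuadraticMap.polar Q e w • f with hw'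
      have hew : QuadraticMap.polar Q e w' = 0 := by
        simp only [hw', hB.add_right, hB.smul_right, hee, hef]; linear_combination (QuadraticMap.polar Q e w) * h2
      have hfw : QuadraticMap.polar Q f w' = 0 := by
        simp only [hw', hB.add_right, hB.smul_right, hff, hfe]; linear_combination (QuadraticMap.polar Q f w) * h2
      have huw : QuadraticMap.polar Q u w' = 1 := by
        simp only [hw', hB.add_right, hB.smul_right, hcomm (u : ι → F) e, hcomm (u : ι → F) f, heu, hfu]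
        rw [(hel _).resolve_left hne]; ring
      have hw'W : w' ∈ W := add_mem (add_mem hw (W.smul_mem _ he)) (W.smul_mem _ hf)
      rcases hel (Q w') with hqw | hqw
      · exact ⟨u + w', add_mem u.2 hw'W, by rw [hsum, hqu, hqw, huw]; ring, by rw [hB.add_right, heu, hew, add_zero],
          by rw [hB.add_right, hfu, hfw, add_zero]⟩
      · exact ⟨w', hw'W, hqw, hew, hfw⟩
    · exact ⟨u, u.2, hqu, heu, hfu⟩
  refine ⟨e + f, add_mem he hf, z + e, add_mem hz he, ?_, ?_, ?_⟩
  · rw [hsum, hqe, hqf, hef]; ring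
  · rw [hsum, hqz, hqe, hcomm, hez]; ring
  · rw [hB.add_left, hB.add_right, hB.add_right, hez, hfz, hee, hfe]; ring

theorem units (hq : Fintype.card F = 2) (hQ : Cfsg.Geo.IsNondegenerateQuadraticForm Q)
    (hW : Cfsg.Geo.IsNondegenerateOn (QuadraticMap.polar Q) W) (hd : Module.finrank F W = 4)
    (hplus : Cfsg.Geo.IsPlusTypeOn Q W) {x y v : ι → F} (hx : x ∈ W) (hy : y ∈ W) (hv : v ∈ W) (hqx : Q x = 1)
    (hqy : Q y = 1) (hxy : QuadraticMap.polar Q x y = 1) (hqv : Q v = 1) :
    (QuadraticMap.polar Q x v = 0 ∧ QuadraticMap.polar Q y v = 0) ∨ v = QuadraticMap.polar Q y v • x + QuadraticMap.polar Q x v • y := by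
  obtain ⟨h2, hel⟩ := two_facts hq
  have hB := hQ.polar_bilinear
  have hsum : ∀ u v, Q (u + v) = Q u + Q v + QuadraticMap.polar Q u v := fun u v => by
    simp only [QuadraticMap.polar]; ring
  have hcomm : ∀ u v, QuadraticMap.polar Q u v = QuadraticMap.polar Q v u := QuadraticMap.polar_comm Q
  have hnegv : ∀ x : ι → F, -x = x := fun x => funext fun _ => by
    show -x _ = x _
    linear_combination (-x _) * h2
  have hxx : QuadraticMap.polar Q x x = 0 := by rw [polar_self hQ, h2, zero_mul]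
  have hyy : QuadraticMap.polar Q y y = 0 := by rw [polar_self hQ, h2, zero_mul]
  have hyx : QuadraticMap.polar Q y x = 1 := (hcomm y x).trans hxy
  set α := QuadraticMap.polar Q y v with hα
  set β := QuadraticMap.polar Q x v with hβ
  by_cases h0 : β = 0 ∧ α = 0
  · exact Or.inl h0
  refine Or.inr ?_
  set w := v + (α • x + β • y) with hw
  have hwW : w ∈ W := add_mem hv (add_mem (W.smul_mem _ hx) (W.smul_mem _ hy))
  have hxw : QuadraticMap.polar Q x w = 0 := by
    simp only [hw, hB.add_right, hB.smul_right, hxx, hxy, ← hβ]; linear_combination β * h2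
  have hyw : QuadraticMap.polar Q y w = 0 := by
    simp only [hw, hB.add_right, hB.smul_right, hyy, hyx, ← hα]; linear_combination α * h2
  have hqw : Q w = 0 := by
    simp only [hw, hsum, hQ.smul, hB.add_right, hB.smul_left, hB.smul_right, hqv, hqx, hqy, hxy, hcomm v x, hcomm v y, ← hα, ← hβ]
    rcases hel α with a | a <;> rcases hel β with b | b
    · exact absurd ⟨b, a⟩ h0
    · rw [a, b]; linear_combination h2
    · rw [a, b]; linear_combination h2
    · rw [a, b]; linear_combination 3 * h2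
  suffices hw0 : w = 0 by
    rw [hw] at hw0
    rw [eq_neg_of_add_eq_zero_left hw0, hnegv]
  by_contra hw0
  obtain ⟨U, hUW, hUs, hUd⟩ := hplus
  have hUp : ∀ u ∈ U, ∀ u' ∈ U, QuadraticMap.polar Q u u' = 0 := fun u hu u' hu' => by
    simp only [QuadraticMap.polar, hUs _ (add_mem hu hu'), hUs u hu, hUs u' hu', sub_zero]
  -- every singular non-zero vector orthogonal to `x, y` lies in `U`
  have key : ∀ z ∈ W, z ≠ 0 → QuadraticMap.polar Q x z = 0 → QuadraticMap.polar Q y z = 0 → Q z = 0 → z ∈ U := by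
    intro z hz hz0 hxz hyz hqz
    by_contra hzU
    have hval : ∀ a b c : F, Q (a • x + b • y + c • z) = a ^ 2 + b ^ 2 + a * b := fun a b c => by
      simp only [hsum, hQ.smul, hB.add_left, hB.smul_left, hB.smul_right, hqx, hqy, hqz, hxy, hxz, hyz]; ring
    have hli : LinearIndependent F ![x, y, z] := by
      rw [Fintype.linearIndependent_iff]
      intro g hg i
      rw [Fin.sum_univ_three] at hg
      simp at hg
      have h00 : ∀ u, QuadraticMap.polar Q u (0 : ι → F) = 0 := fun u => by rw [← zero_smul F x, hB.smul_right, zero_mul]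
      have e1 := congrArg (QuadraticMap.polar Q x) hg
      have e2 := congrArg (QuadraticMap.polar Q y) hg
      simp only [hB.add_right, hB.smul_right, hxx, hxy, hxz, hyy, hyx, hyz, h00] at e1 e2
      have g1 : g 1 = 0 := by linear_combination e1
      have g0 : g 0 = 0 := by linear_combination e2
      rw [g0, g1, zero_smul, zero_smul, zero_add, zero_add, smul_eq_zero] at hg
      fin_cases i
      · exact g0
      · exact g1
      · exact hg.resolve_right hz0
    have hle : Submodule.span F (Set.range ![x, y, z]) ≤ W := Submodule.span_le.2 fun u hu => by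
      obtain ⟨i, rfl⟩ := hu
      fin_cases i <;> assumption
    have hd3 := finrank_span_eq_card hli
    rw [Fintype.card_fin] at hd3
    have hinf : U ⊓ Submodule.span F (Set.range ![x, y, z]) ≠ ⊥ := fun h => by
      have h1 := Submodule.finrank_sup_add_finrank_inf_eq U (Submodule.span F (Set.range ![x, y, z]))
      rw [h, finrank_bot, hd3] at h1
      have h3 := Submodule.finrank_mono (sup_le hUW hle)
      omega
    obtain ⟨u, hu, hu0⟩ := Submodule.exists_mem_ne_zero_of_ne_bot hinf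
    obtain ⟨g, hg⟩ := (Submodule.mem_span_range_iff_exists_fun F).1 hu.2
    rw [Fin.sum_univ_three] at hg
    simp at hg
    have hqu : Q (g 0 • x + g 1 • y + g 2 • z) = 0 := by rw [hg]; exact hUs u hu.1
    rw [hval] at hqu
    rcases hel (g 0) with a | a <;> rcases hel (g 1) with b | b <;> rw [a, b] at hqu
    · rw [a, b, zero_smul, zero_smul, zero_add, zero_add] at hg
      rcases hel (g 2) with c | c <;> rw [c] at hg
      · rw [zero_smul] at hg; exact hu0 hg.symm
      · rw [one_smul] at hg; exact hzU (hg ▸ hu.1)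
    · exact one_ne_zero (α := F) (by linear_combination hqu)
    · exact one_ne_zero (α := F) (by linear_combination hqu)
    · exact one_ne_zero (α := F) (by linear_combination hqu - h2)
  obtain ⟨w₁, hw₁, hne⟩ := (hW w hwW hw0).2
  set w₂ := w₁ + (QuadraticMap.polar Q y w₁ • x + QuadraticMap.polar Q x w₁ • y) with hw₂
  have hww : QuadraticMap.polar Q w w₂ = 1 := by
    simp only [hw₂, hB.add_right, hB.smul_right, hcomm w x, hcomm w y, hxw, hyw]
    rw [(hel _).resolve_left hne]; ring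
  have hxw2 : QuadraticMap.polar Q x w₂ = 0 := by
    simp only [hw₂, hB.add_right, hB.smul_right, hxx, hxy]; linear_combination (QuadraticMap.polar Q x w₁) * h2
  have hyw2 : QuadraticMap.polar Q y w₂ = 0 := by
    simp only [hw₂, hB.add_right, hB.smul_right, hyy, hyx]; linear_combination (QuadraticMap.polar Q y w₁) * h2
  have hw2W : w₂ ∈ W := add_mem hw₁ (add_mem (W.smul_mem _ hx) (W.smul_mem _ hy))
  obtain ⟨w₃, hw3W, hq3, h31, hx3, hy3⟩ : ∃ w₃ ∈ W, Q w₃ = 0 ∧ QuadraticMap.polar Q w w₃ = 1 ∧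
      QuadraticMap.polar Q x w₃ = 0 ∧ QuadraticMap.polar Q y w₃ = 0 := by
    refine ⟨w₂ + Q w₂ • w, add_mem hw2W (W.smul_mem _ hwW), ?_, ?_, ?_, ?_⟩
    · rw [hsum, hQ.smul, hqw, hB.smul_right, hcomm w₂ w, hww]; linear_combination (Q w₂) * h2
    · rw [hB.add_right, hB.smul_right, hww, polar_self hQ, hqw]; ring
    · rw [hB.add_right, hB.smul_right, hxw2, hxw]; ring
    · rw [hB.add_right, hB.smul_right, hyw2, hyw]; ring
  have h30 : w₃ ≠ 0 := fun h => by
    rw [h, ← zero_smul F x, hB.smul_right, zero_mul] at h31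
    exact zero_ne_one h31
  have := hUp w (key w hwW hw0 hxw hyw hqw) w₃ (key w₃ hw3W h30 hx3 hy3 hq3)
  rw [h31] at this
  exact one_ne_zero this

/-- the isometry `z ↦ z + B(Y,z) X + B(X,z) Y` for totally singular `X, Y` with `B(X,Y) = 0`, in characteristic two -/
theorem exists_swap (hQ : Cfsg.Geo.IsNondegenerateQuadraticForm Q) (h2 : (2 : F) = 0) {X Y : ι → F} (hX : Q X = 0)
    (hY : Q Y = 0) (hXY : QuadraticMap.polar Q X Y = 0) :
    ∃ g ∈ Cfsg.isometryGroup F Q, g * g = 1 ∧
      ∀ z, g.1 *ᵥ z = z + (QuadraticMap.polar Q Y z • X + QuadraticMap.polar Q X z • Y) := by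
  have hB := hQ.polar_bilinear
  have hsum : ∀ u v, Q (u + v) = Q u + Q v + QuadraticMap.polar Q u v := fun u v => by
    simp only [QuadraticMap.polar]; ring
  have hXX : QuadraticMap.polar Q X X = 0 := by rw [polar_self hQ, hX, mul_zero]
  have hYY : QuadraticMap.polar Q Y Y = 0 := by rw [polar_self hQ, hY, mul_zero]
  have hYX : QuadraticMap.polar Q Y X = 0 := by rw [QuadraticMap.polar_comm]; exact hXY
  let N : (ι → F) →ₗ[F] (ι → F) :=
    (QuadraticMap.polarBilin (toQ hQ) Y).smulRight X + (QuadraticMap.polarBilin (toQ hQ) X).smulRight Y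
  have hNx : ∀ z, N z = QuadraticMap.polar Q Y z • X + QuadraticMap.polar Q X z • Y := fun z => rfl
  have hNN : ∀ z, N (N z) = 0 := fun z => by
    rw [hNx, hNx]
    simp only [hB.add_right, hB.smul_right, hXX, hYY, hXY, hYX]
    simp
  refine ⟨unip N hNN, fun z _ => ?_, ?_, fun z => by rw [unip_apply, hNx]⟩
  · show Q ((unip N hNN).1 *ᵥ z) = Q z
    rw [unip_apply, hNx]
    simp only [hsum, hQ.smul, hB.add_right, hB.smul_left, hB.smul_right, hX, hY, hXY, QuadraticMap.polar_comm Q z X,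
      QuadraticMap.polar_comm Q z Y]
    linear_combination (QuadraticMap.polar Q X z * QuadraticMap.polar Q Y z) * h2
  · refine Units.ext (Matrix.ext_of_mulVec_single fun i => ?_)
    rw [Units.val_mul, ← Matrix.mulVec_mulVec, Units.val_one, Matrix.one_mulVec, unip_apply N hNN (Pi.single i 1),
      unip_apply, map_add, hNN, add_zero, add_assoc, ← two_smul F (N _), h2, zero_smul, add_zero]

variable {t : ℕ} {D : Fin t → Submodule F (ι → F)}

theorem not_maximal (hq : Fintype.card F = 2) (hQ : Cfsg.Geo.IsNondegenerateQuadraticForm Q)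
    (hD : Cfsg.Geo.IsOrthogonalMDecomposition Q 4 D) (hplus : ∀ i, Cfsg.Geo.IsPlusTypeOn Q (D i)) (ht : 4 ≤ t) :
    ∃ K : Subgroup (GL ι F), Cfsg.Geo.decompositionStabilizer D ⊓ Cfsg.Geo.omegaGL Q < K ∧ K < Cfsg.Geo.omegaGL Q := by
  classical
  obtain ⟨h2, hel⟩ := two_facts hq
  have hD' := hD.decomp.decomp
  have hB := hQ.polar_bilinear
  have hcomm : ∀ u v, QuadraticMap.polar Q u v = QuadraticMap.polar Q v u := QuadraticMap.polar_comm Q
  have hsum : ∀ u v, Q (u + v) = Q u + Q v + QuadraticMap.polar Q u v := fun u v => by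
    simp only [QuadraticMap.polar]; ring
  have h2v : ∀ z : ι → F, z + z = 0 := fun z => by rw [← two_smul F z, h2, zero_smul]
  choose x hx y hy hqx hqy hxy using fun i => exists_minus_pair hq hQ (hD.decomp.nondegenerate i) (hD'.finrank_eq i)
  have hxx : ∀ i, QuadraticMap.polar Q (x i) (x i) = 0 := fun i => by rw [polar_self hQ, h2, zero_mul]
  have hyy : ∀ i, QuadraticMap.polar Q (y i) (y i) = 0 := fun i => by rw [polar_self hQ, h2, zero_mul]
  have hyx : ∀ i, QuadraticMap.polar Q (y i) (x i) = 1 := fun i => (hcomm _ _).trans (hxy i)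
  have hx0 : ∀ i, x i ≠ 0 := fun i h => by
    have := hqx i
    rw [h, ← zero_smul F (0 : ι → F), hQ.smul] at this
    simp at this
  let k : Fin 4 → Fin t := Fin.castLE ht
  have hk : Function.Injective k := Fin.castLE_injective ht
  have oo : ∀ a b : Fin 4, a ≠ b → ∀ u ∈ D (k a), ∀ v ∈ D (k b), QuadraticMap.polar Q u v = 0 := fun a b h =>
    hD.decomp.orthogonal _ _ fun h' => h (hk h')
  have xx : ∀ a b : Fin 4, a ≠ b → QuadraticMap.polar Q (x (k a)) (x (k b)) = 0 := fun a b h => oo a b h _ (hx _) _ (hx _)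
  have yy : ∀ a b : Fin 4, a ≠ b → QuadraticMap.polar Q (y (k a)) (y (k b)) = 0 := fun a b h => oo a b h _ (hy _) _ (hy _)
  have xy : ∀ a b : Fin 4, a ≠ b → QuadraticMap.polar Q (x (k a)) (y (k b)) = 0 := fun a b h => oo a b h _ (hx _) _ (hy _)
  have yx : ∀ a b : Fin 4, a ≠ b → QuadraticMap.polar Q (y (k a)) (x (k b)) = 0 := fun a b h => oo a b h _ (hy _) _ (hx _)
  -- transposition of two planes
  have swap : ∀ a b : Fin 4, a ≠ b → ∃ g ∈ Cfsg.isometryGroup F Q, g * g = 1 ∧
      g.1 *ᵥ x (k a) = x (k b) ∧ g.1 *ᵥ y (k a) = y (k b) ∧ g.1 *ᵥ x (k b) = x (k a) ∧ g.1 *ᵥ y (k b) = y (k a) ∧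
      (∀ z, QuadraticMap.polar Q (x (k a)) z = 0 → QuadraticMap.polar Q (y (k a)) z = 0 → QuadraticMap.polar Q (x (k b)) z = 0 →
        QuadraticMap.polar Q (y (k b)) z = 0 → g.1 *ᵥ z = z) ∧
      (∀ j, ∀ v ∈ D j, Q v = 1 → ∃ j', g.1 *ᵥ v ∈ D j') := by
    intro a b hab
    have hX : Q (x (k a) + x (k b)) = 0 := by rw [hsum, hqx, hqx, xx a b hab]; linear_combination h2
    have hY : Q (y (k a) + y (k b)) = 0 := by rw [hsum, hqy, hqy, yy a b hab]; linear_combination h2
    have hXY : QuadraticMap.polar Q (x (k a) + x (k b)) (y (k a) + y (k b)) = 0 := by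
      simp only [hB.add_left, hB.add_right, hxy, xy a b hab, xy b a hab.symm]; linear_combination h2
    obtain ⟨g, hg, hgg, hga⟩ := exists_swap hQ h2 hX hY hXY
    have e1 : g.1 *ᵥ x (k a) = x (k b) := by
      rw [hga]; simp only [hB.add_left, hxx, hyx, xx b a hab.symm, yx b a hab.symm, add_zero, one_smul, zero_smul]
      rw [← add_assoc, h2v, zero_add]
    have e2 : g.1 *ᵥ y (k a) = y (k b) := by
      rw [hga]; simp only [hB.add_left, hyy, hxy, yy b a hab.symm, xy b a hab.symm, add_zero, one_smul, zero_smul, zero_add]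
      rw [← add_assoc, h2v, zero_add]
    have e3 : g.1 *ᵥ x (k b) = x (k a) := by
      rw [← e1, Matrix.mulVec_mulVec, ← Units.val_mul, hgg, Units.val_one, Matrix.one_mulVec]
    have e4 : g.1 *ᵥ y (k b) = y (k a) := by
      rw [← e2, Matrix.mulVec_mulVec, ← Units.val_mul, hgg, Units.val_one, Matrix.one_mulVec]
    have hfix : ∀ z, QuadraticMap.polar Q (x (k a)) z = 0 → QuadraticMap.polar Q (y (k a)) z = 0 → QuadraticMap.polar Q (x (k b)) z = 0 →
        QuadraticMap.polar Q (y (k b)) z = 0 → g.1 *ᵥ z = z := fun z h1 h2' h3 h4 => by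
      rw [hga]; simp [hB.add_left, h1, h2', h3, h4]
    refine ⟨g, hg, hgg, e1, e2, e3, e4, hfix, fun j v hv hqv => ?_⟩
    have hin : ∀ i : Fin 4, ∀ c : Fin 4, g.1 *ᵥ x (k i) = x (k c) → g.1 *ᵥ y (k i) = y (k c) → k i = j →
        v = QuadraticMap.polar Q (y (k i)) v • x (k i) + QuadraticMap.polar Q (x (k i)) v • y (k i) → ∃ j', g.1 *ᵥ v ∈ D j' := by
      intro i c hgx hgy _ hvv
      refine ⟨k c, ?_⟩
      rw [hvv, Matrix.mulVec_add, Matrix.mulVec_smul, Matrix.mulVec_smul, hgx, hgy]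
      exact add_mem ((D _).smul_mem _ (hx _)) ((D _).smul_mem _ (hy _))
    have hcase : ∀ i : Fin 4, k i = j → (QuadraticMap.polar Q (x (k i)) v = 0 ∧ QuadraticMap.polar Q (y (k i)) v = 0) ∨
        v = QuadraticMap.polar Q (y (k i)) v • x (k i) + QuadraticMap.polar Q (x (k i)) v • y (k i) := fun i e => by
      subst e
      exact units hq hQ (hD.decomp.nondegenerate _) (hD'.finrank_eq _) (hplus _) (hx _) (hy _) hv (hqx _) (hqy _) (hxy _) hqv
    have hout : ∀ i : Fin 4, k i ≠ j → QuadraticMap.polar Q (x (k i)) v = 0 ∧ QuadraticMap.polar Q (y (k i)) v = 0 := fun i e =>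
      ⟨hD.decomp.orthogonal _ _ e _ (hx _) _ hv, hD.decomp.orthogonal _ _ e _ (hy _) _ hv⟩
    by_cases ja : k a = j
    · rcases hcase a ja with ⟨p, p'⟩ | p
      · obtain ⟨q, q'⟩ := hout b (fun e => hab (hk (ja.trans e.symm)))
        exact ⟨j, by rw [hfix v p p' q q']; exact hv⟩
      · exact hin a b e1 e2 ja p
    · obtain ⟨p, p'⟩ := hout a ja
      by_cases jb : k b = j
      · rcases hcase b jb with ⟨q, q'⟩ | q
        · exact ⟨j, by rw [hfix v p p' q q']; exact hv⟩
        · exact hin b a e3 e4 jb q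
      · obtain ⟨q, q'⟩ := hout b jb
        exact ⟨j, by rw [hfix v p p' q q']; exact hv⟩
  obtain ⟨g, hg, hgg, gx0, gy0, gx1, gy1, gfix, gU⟩ := swap 0 1 (by decide)
  obtain ⟨h, hh, hhh, hx1, hy1, hx2, hy2, hfix', hU⟩ := swap 1 2 (by decide)
  let U : Set (ι → F) := {v | Q v = 1 ∧ ∃ j, v ∈ D j}
  have hgU : g ∈ Cfsg.stabilizing (Cfsg.glToMat ι F) U :=
    mem_stabilizing fun v ⟨hv, j, hj⟩ => ⟨(hg v v).trans hv, gU j v hj hv⟩
  have hhU : h ∈ Cfsg.stabilizing (Cfsg.glToMat ι F) U :=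
    mem_stabilizing fun v ⟨hv, j, hj⟩ => ⟨(hh v v).trans hv, hU j v hj hv⟩
  set a := y (k 0) + x (k 2) + x (k 3) with ha
  have hqa : Q a = 1 := by
    simp only [ha, hsum, hqy, hqx, hB.add_left, yx 0 2 (by decide), yx 0 3 (by decide), xx 2 3 (by decide)]
    linear_combination h2
  have hqa0 : Q a ≠ 0 := by rw [hqa]; exact one_ne_zero
  have hga : g.1 *ᵥ a = y (k 1) + x (k 2) + x (k 3) := by
    rw [ha, Matrix.mulVec_add, Matrix.mulVec_add, gy0,
      gfix (x (k 2)) (xx 0 2 (by decide)) (yx 0 2 (by decide)) (xx 1 2 (by decide)) (yx 1 2 (by decide)),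
      gfix (x (k 3)) (xx 0 3 (by decide)) (yx 0 3 (by decide)) (xx 1 3 (by decide)) (yx 1 3 (by decide))]
  refine ⟨Cfsg.stabilizing (Cfsg.glToMat ι F) U ⊓ Cfsg.Geo.omegaGL Q, lt_and_lt (le_inf ?_ inf_le_right) inf_le_right
    (x := g * h * g⁻¹ * h⁻¹) (y := g * refl hQ hqa0 * g⁻¹ * (refl hQ hqa0)⁻¹)
    (Subgroup.mem_inf.2 ⟨mul_mem (mul_mem (mul_mem hgU hhU) (inv_mem hgU)) (inv_mem hhU), mem_omega_of_comm hg hh⟩) ?_
    (mem_omega_of_comm hg (refl_mem hQ hqa0)) ?_⟩
  · intro u hu
    obtain ⟨hus, huo⟩ := Subgroup.mem_inf.1 hu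
    obtain ⟨σ, hσ⟩ := stab_perm hus
    exact mem_stabilizing fun v ⟨hv, j, hj⟩ => ⟨(omega_preserves huo v).trans hv, σ j, hσ j v hj⟩
  · intro hm
    obtain ⟨σ, hσ⟩ := stab_perm (Subgroup.mem_inf.1 hm).1
    obtain ⟨z, hz, hz0, hxz, hyz⟩ : ∃ z ∈ D (k 0), z ≠ 0 ∧ QuadraticMap.polar Q (x (k 0)) z = 0 ∧ QuadraticMap.polar Q (y (k 0)) z = 0 := by
      let φ : D (k 0) →ₗ[F] F × F :=
        ((QuadraticMap.polarBilin (toQ hQ) (x (k 0))).prod (QuadraticMap.polarBilin (toQ hQ) (y (k 0)))).comp (D (k 0)).subtype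
      obtain ⟨u, hu, hu0⟩ := Submodule.exists_mem_ne_zero_of_ne_bot (p := φ.ker) (fun h' => by
        have h1 := φ.finrank_range_add_finrank_ker
        rw [h', finrank_bot, add_zero] at h1
        have h2' := φ.range.finrank_le
        rw [Module.finrank_prod, Module.finrank_self, h1, hD'.finrank_eq] at h2'
        omega)
      rw [LinearMap.mem_ker] at hu
      exact ⟨u, u.2, fun h' => hu0 (Subtype.ext h'), congrArg Prod.fst hu, congrArg Prod.snd hu⟩
    have o : ∀ i : Fin 4, i ≠ 0 → QuadraticMap.polar Q (x (k i)) z = 0 ∧ QuadraticMap.polar Q (y (k i)) z = 0 := fun i hi =>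
      ⟨oo i 0 hi _ (hx _) _ hz, oo i 0 hi _ (hy _) _ hz⟩
    have gz := gfix z hxz hyz (o 1 (by decide)).1 (o 1 (by decide)).2
    have hz' := hfix' z (o 1 (by decide)).1 (o 1 (by decide)).2 (o 2 (by decide)).1 (o 2 (by decide)).2
    have e2 : ((g * h * g⁻¹ * h⁻¹ : GL ι F)).1 *ᵥ z ∈ D (σ (k 0)) := hσ (k 0) z hz
    have e1 : ((g * h * g⁻¹ * h⁻¹ : GL ι F)).1 *ᵥ x (k 0) ∈ D (σ (k 0)) := hσ (k 0) _ (hx _)
    rw [inv_eq_of_mul_eq_one_right hgg, inv_eq_of_mul_eq_one_right hhh, Units.val_mul, Units.val_mul, Units.val_mul,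
      ← Matrix.mulVec_mulVec, ← Matrix.mulVec_mulVec, ← Matrix.mulVec_mulVec] at e1 e2
    rw [hz', gz, hz', gz] at e2
    have hh0 : h.1 *ᵥ x (k 0) = x (k 0) :=
      hfix' _ (xx 1 0 (by decide)) (yx 1 0 (by decide)) (xx 2 0 (by decide)) (yx 2 0 (by decide))
    rw [hh0, gx0, hx1,
      gfix _ (xx 0 2 (by decide)) (yx 0 2 (by decide)) (xx 1 2 (by decide)) (yx 1 2 (by decide))] at e1
    by_cases hs : σ (k 0) = k 0
    · have c1 := comp_of_mem hD' e1 (k 2)
      rw [comp_of_mem hD' (hx (k 2)), if_pos rfl, hs, if_neg (fun e => by simpa using hk e)] at c1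
      exact hx0 _ c1
    · have c2 := comp_of_mem hD' e2 (k 0)
      rw [comp_of_mem hD' hz, if_pos rfl, if_neg hs] at c2
      exact hz0 c2
  · intro hm
    obtain ⟨-, j, hj⟩ := (((Subgroup.mem_inf.1 hm).1 (x (k 0)))).1 ⟨hqx _, k 0, hx _⟩
    rw [Units.coeHom_apply, inv_eq_of_mul_eq_one_right hgg, inv_eq_of_mul_eq_one_right (refl_sq hQ hqa0), Units.val_mul,
      Units.val_mul, Units.val_mul, ← Matrix.mulVec_mulVec, ← Matrix.mulVec_mulVec, ← Matrix.mulVec_mulVec] at hj
    rw [show (refl hQ hqa0).1 *ᵥ x (k 0) = x (k 0) + a by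
        rw [refl_apply, hqa, inv_one, one_mul, show QuadraticMap.polar Q a (x (k 0)) = 1 by
          simp only [ha, hB.add_left, hyx, xx 2 0 (by decide), xx 3 0 (by decide)]; ring,
          one_smul, sub_eq_iff_eq_add, add_assoc, h2v, add_zero]] at hj
    rw [Matrix.mulVec_add, gx0, hga, refl_fix hQ (a := a) (x := x (k 1) + (y (k 1) + x (k 2) + x (k 3))) _ (by
        simp only [ha, hB.add_left, hB.add_right, hxx, yx 0 1 (by decide), yy 0 1 (by decide), yx 0 2 (by decide),
          yx 0 3 (by decide), xx 2 1 (by decide), xy 2 1 (by decide), xx 2 3 (by decide), xx 3 1 (by decide),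
          xy 3 1 (by decide), xx 3 2 (by decide)]
        ring),
      Matrix.mulVec_add, Matrix.mulVec_add, Matrix.mulVec_add, gx1, gy1,
      gfix (x (k 2)) (xx 0 2 (by decide)) (yx 0 2 (by decide)) (xx 1 2 (by decide)) (yx 1 2 (by decide)),
      gfix (x (k 3)) (xx 0 3 (by decide)) (yx 0 3 (by decide)) (xx 1 3 (by decide)) (yx 1 3 (by decide))] at hj
    refine not_mem_of_comp hD' (i := k 2) (j := k 3) (fun e => by simpa using hk e) ?_ ?_ j hj
    · simp [comp_of_mem hD' (hx _), comp_of_mem hD' (hy _), hk.eq_iff, hx0]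
    · simp [comp_of_mem hD' (hx _), comp_of_mem hD' (hy _), hk.eq_iff, hx0]

end CfsgLib.NonMax.MinusPairs
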