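import Mathlib
import Cfsg.Prelude.Def_GeometricClasses
import Cfsg.Agent.Lib.NonMax.Tools
import Cfsg.Agent.Lib.NonMax.OmegaTools

/-! Characteristic two: decompositions into plus-type planes over the fields with two or four elements. -/
set_option autoImplicit false

namespace CfsgLib.NonMax.PlaneLattice
open scoped Matrix
open CfsgLib.NonMax.Tools CfsgLib.NonMax.OmegaTools

variable {ι : Type} [Fintype ι] [DecidableEq ι] {F : Type*} [Field F] [Fintype F] {Q : (ι → F) → F} {t : ℕ}
  {D : Fin t → Submodule F (ι → F)}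

theorem plane_basis (hQ : Cfsg.Geo.IsNondegenerateQuadraticForm Q) {W : Submodule F (ι → F)}
    (hd : Module.finrank F W = 2) (hW : Cfsg.Geo.IsNondegenerateOn (QuadraticMap.polar Q) W)
    (hplus : Cfsg.Geo.IsPlusTypeOn Q W) :
    ∃ e ∈ W, ∃ f ∈ W, Q e = 0 ∧ Q f = 0 ∧ QuadraticMap.polar Q e f = 1 ∧ ∀ w ∈ W, ∃ s r : F, w = s • e + r • f := by
  have hB := hQ.polar_bilinear
  obtain ⟨U, hUW, hUs, hUd⟩ := hplus
  obtain ⟨e, heU, he0⟩ := Submodule.exists_mem_ne_zero_of_ne_bot (p := U) (fun h => by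
    rw [h, finrank_bot, hd] at hUd; omega)
  have heW := hUW heU
  have hqe := hUs e heU
  have hee : QuadraticMap.polar Q e e = 0 := by rw [polar_self hQ, hqe, mul_zero]
  obtain ⟨y₀, hy₀, hne⟩ := (hW e heW he0).2
  obtain ⟨y, hy, hey⟩ : ∃ y ∈ W, QuadraticMap.polar Q e y = 1 :=
    ⟨(QuadraticMap.polar Q e y₀)⁻¹ • y₀, W.smul_mem _ hy₀, by rw [hB.smul_right, inv_mul_cancel₀ hne]⟩
  obtain ⟨f, hf, hqf, hef⟩ : ∃ f ∈ W, Q f = 0 ∧ QuadraticMap.polar Q e f = 1 := by
    refine ⟨y + (-Q y) • e, add_mem hy (W.smul_mem _ heW), ?_, ?_⟩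
    · have h : Q (y + (-Q y) • e) = Q y + Q ((-Q y) • e) + QuadraticMap.polar Q y ((-Q y) • e) := by
        simp only [QuadraticMap.polar]; ring
      rw [h, hB.smul_right, QuadraticMap.polar_comm Q y e, hey, hQ.smul, hqe]; ring
    · rw [hB.add_right, hB.smul_right, hey, hee]; ring
  have hff : QuadraticMap.polar Q f f = 0 := by rw [polar_self hQ, hqf, mul_zero]
  refine ⟨e, heW, f, hf, hqe, hqf, hef, ?_⟩
  have hli : LinearIndependent F ![e, f] := by
    rw [LinearIndependent.pair_iff]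
    intro s r hsr
    have h1 := congrArg (QuadraticMap.polar Q e) hsr
    have h2' := congrArg (QuadraticMap.polar Q f) hsr
    have h0 : ∀ u, QuadraticMap.polar Q u (0 : ι → F) = 0 := fun u => by rw [← zero_smul F e, hB.smul_right, zero_mul]
    simp only [hB.add_right, hB.smul_right, hee, hef, hff, QuadraticMap.polar_comm Q f e, h0] at h1 h2'
    exact ⟨by linear_combination h2', by linear_combination h1⟩
  have hle : Submodule.span F {e, f} ≤ W := Submodule.span_le.2 fun z hz => by
    rcases hz with rfl | rfl <;> assumption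
  have hfr : Module.finrank F (Submodule.span F ({e, f} : Set (ι → F))) = 2 := by
    have := finrank_span_eq_card hli
    rw [Matrix.range_cons_cons_empty, Fintype.card_fin] at this
    exact this
  intro w hw
  rw [← Submodule.eq_of_le_of_finrank_eq hle (hfr.trans hd.symm), Submodule.mem_span_pair] at hw
  obtain ⟨s, r, h⟩ := hw
  exact ⟨s, r, h.symm⟩

/-- two vectors of value one in a plus-type plane -/
theorem units_pair (hQ : Cfsg.Geo.IsNondegenerateQuadraticForm Q) (h2 : (2 : F) = 0)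
    (hcube : ∀ x : F, x ≠ 0 → x ^ 3 = 1) {W : Submodule F (ι → F)}
    (hd : Module.finrank F W = 2) (hW : Cfsg.Geo.IsNondegenerateOn (QuadraticMap.polar Q) W)
    (hplus : Cfsg.Geo.IsPlusTypeOn Q W) {u v : ι → F} (hu : u ∈ W) (hv : v ∈ W) (hqu : Q u = 1) (hqv : Q v = 1) :
    (v = u ∧ QuadraticMap.polar Q u v = 0) ∨ QuadraticMap.polar Q u v = 1 := by
  have hB := hQ.polar_bilinear
  obtain ⟨e, -, f, -, hqe, hqf, hef, hspan⟩ := plane_basis hQ hd hW hplus
  have hee : QuadraticMap.polar Q e e = 0 := by rw [polar_self hQ, hqe, mul_zero]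
  have hff : QuadraticMap.polar Q f f = 0 := by rw [polar_self hQ, hqf, mul_zero]
  have hval : ∀ s r : F, Q (s • e + r • f) = s * r := fun s r => by
    have h : Q (s • e + r • f) = Q (s • e) + Q (r • f) + QuadraticMap.polar Q (s • e) (r • f) := by
      simp only [QuadraticMap.polar]; ring
    rw [h, hQ.smul, hQ.smul, hqe, hqf, hB.smul_left, hB.smul_right, hef]; ring
  obtain ⟨s, r, rfl⟩ := hspan u hu
  obtain ⟨s', r', rfl⟩ := hspan v hv
  rw [hval] at hqu hqv
  have hp : QuadraticMap.polar Q (s • e + r • f) (s' • e + r' • f) = s * r' + r * s' := by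
    simp only [hB.add_left, hB.add_right, hB.smul_left, hB.smul_right, hee, hff, hef, QuadraticMap.polar_comm Q f e]
    ring
  rw [hp]
  set l := s' * r with hl
  have hs' : s' = l * s := by rw [hl]; linear_combination (-s') * hqu
  have hr' : r = l * r' := by rw [hl]; linear_combination (-r) * hqv
  have hl0 : l ≠ 0 := mul_ne_zero (left_ne_zero_of_mul_eq_one hqv) (right_ne_zero_of_mul_eq_one hqu)
  rcases mul_eq_zero.1 (show (l - 1) * (l * l + l + 1) = 0 by linear_combination hcube l hl0) with h | h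
  · left
    rw [sub_eq_zero] at h
    rw [h, one_mul] at hs' hr'
    refine ⟨by rw [hs', hr'], ?_⟩
    rw [hs', hr']
    linear_combination (s * r') * h2
  · right
    have hr'' : r' = r * (l * l) := by
      have := hcube l hl0
      rw [hr']
      linear_combination (-r') * this
    rw [hs', hr'']
    linear_combination (s * r) * h - hqu - h2

/-- the lattice of vectors whose components have value one or vanish -/
def lattice (hD : Cfsg.Geo.IsMDecomposition 2 D) (Q : (ι → F) → F) : Set (ι → F) :=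
  {x | ∀ i, comp hD i x = 0 ∨ Q (comp hD i x) = 1}

theorem not_maximal (hQ : Cfsg.Geo.IsNondegenerateQuadraticForm Q) (h2 : (2 : F) = 0)
    (hcube : ∀ x : F, x ≠ 0 → x ^ 3 = 1) (hD : Cfsg.Geo.IsOrthogonalMDecomposition Q 2 D)
    (hplus : ∀ i, Cfsg.Geo.IsPlusTypeOn Q (D i)) (ht : 7 ≤ t) :
    ∃ K : Subgroup (GL ι F), Cfsg.Geo.decompositionStabilizer D ⊓ Cfsg.Geo.omegaGL Q < K ∧ K < Cfsg.Geo.omegaGL Q := by
  classical
  have hD' := hD.decomp.decomp
  have hB := hQ.polar_bilinear
  have hcomm : ∀ u v, QuadraticMap.polar Q u v = QuadraticMap.polar Q v u := QuadraticMap.polar_comm Q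
  have hsum : ∀ u v, Q (u + v) = Q u + Q v + QuadraticMap.polar Q u v := fun u v => by
    simp only [QuadraticMap.polar]; ring
  have hneg : ∀ x : F, -x = x := fun x => by linear_combination (-x) * h2
  have hnegv : ∀ x : ι → F, -x = x := fun x => funext fun _ => hneg _
  have horth : ∀ i j, i ≠ j → ∀ x ∈ D i, ∀ y ∈ D j, QuadraticMap.polar Q x y = 0 := fun i j h x hx y hy =>
    hD.decomp.orthogonal i j h x hx y hy
  choose e he f hf hqe hqf hef _hsp using fun i => plane_basis hQ (hD'.finrank_eq i) (hD.decomp.nondegenerate i) (hplus i)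
  set v := fun i => e i + f i with hv
  have hvD : ∀ i, v i ∈ D i := fun i => add_mem (he i) (hf i)
  have hqv : ∀ i, Q (v i) = 1 := fun i => by simp only [hv, hsum, hqe, hqf, hef]; ring
  have hve : ∀ i, QuadraticMap.polar Q (v i) (e i) = 1 := fun i => by
    simp only [hv, hB.add_left, polar_self hQ, hqe, hcomm (f i) (e i), hef]; ring
  have hev : ∀ i, QuadraticMap.polar Q (e i) (v i) = 1 := fun i => (hcomm _ _).trans (hve i)
  have hvv : ∀ i, QuadraticMap.polar Q (v i) (v i) = 0 := fun i => by rw [polar_self hQ, hqv, h2, zero_mul]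
  have hee : ∀ i, QuadraticMap.polar Q (e i) (e i) = 0 := fun i => by rw [polar_self hQ, hqe, mul_zero]
  have hfv : ∀ i, QuadraticMap.polar Q (f i) (v i) = 1 := fun i => by
    simp only [hv, hB.add_right, polar_self hQ, hqf, hcomm (f i) (e i), hef]; ring
  have hfe : ∀ i, QuadraticMap.polar Q (f i) (e i) = 1 := fun i => by rw [hcomm]; exact hef i
  let k : Fin 7 → Fin t := Fin.castLE ht
  have hk : Function.Injective k := Fin.castLE_injective ht
  have ov : ∀ a b : Fin 7, a ≠ b → ∀ x ∈ D (k a), ∀ y ∈ D (k b), QuadraticMap.polar Q x y = 0 := fun a b h =>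
    horth _ _ fun h' => h (hk h')
  have vv : ∀ a b : Fin 7, a ≠ b → QuadraticMap.polar Q (v (k a)) (v (k b)) = 0 := fun a b h => ov a b h _ (hvD _) _ (hvD _)
  have ve : ∀ a b : Fin 7, a ≠ b → QuadraticMap.polar Q (v (k a)) (e (k b)) = 0 := fun a b h => ov a b h _ (hvD _) _ (he _)
  have ev : ∀ a b : Fin 7, a ≠ b → QuadraticMap.polar Q (e (k a)) (v (k b)) = 0 := fun a b h => ov a b h _ (he _) _ (hvD _)
  have fv : ∀ a b : Fin 7, a ≠ b → QuadraticMap.polar Q (f (k a)) (v (k b)) = 0 := fun a b h => ov a b h _ (hf _) _ (hvD _)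
  have vf : ∀ a b : Fin 7, a ≠ b → QuadraticMap.polar Q (v (k a)) (f (k b)) = 0 := fun a b h => ov a b h _ (hvD _) _ (hf _)
  have fe : ∀ a b : Fin 7, a ≠ b → QuadraticMap.polar Q (f (k a)) (e (k b)) = 0 := fun a b h => ov a b h _ (hf _) _ (he _)
  have ee : ∀ a b : Fin 7, a ≠ b → QuadraticMap.polar Q (e (k a)) (e (k b)) = 0 := fun a b h => ov a b h _ (he _) _ (he _)
  have ef : ∀ a b : Fin 7, a ≠ b → QuadraticMap.polar Q (e (k a)) (f (k b)) = 0 := fun a b h => ov a b h _ (he _) _ (hf _)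
  set a := v (k 0) + v (k 1) + v (k 2) with ha
  set b := v (k 3) + v (k 4) + v (k 5) with hb
  set c := e (k 0) + e (k 3) + v (k 6) with hc
  set a' := e (k 0) + v (k 1) with ha'
  set c' := f (k 0) + e (k 3) + v (k 6) with hc'
  have qa : Q a = 1 := by
    simp only [ha, hsum, hqv, hB.add_left, vv 0 1 (by decide), vv 0 2 (by decide), vv 1 2 (by decide)]
    linear_combination h2
  have qb : Q b = 1 := by
    simp only [hb, hsum, hqv, hB.add_left, vv 3 4 (by decide), vv 3 5 (by decide), vv 4 5 (by decide)]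
    linear_combination h2
  have qc : Q c = 1 := by
    simp only [hc, hsum, hqv, hqe, hB.add_left, ee 0 3 (by decide), ev 0 6 (by decide), ev 3 6 (by decide)]
    ring
  have qa' : Q a' = 1 := by simp only [ha', hsum, hqv, hqe, ev 0 1 (by decide)]; ring
  have qc' : Q c' = 1 := by
    simp only [hc', hsum, hqv, hqe, hqf, hB.add_left, fe 0 3 (by decide), fv 0 6 (by decide), ev 3 6 (by decide)]
    ring
  have hac : QuadraticMap.polar Q a c = 1 := by
    simp only [ha, hc, hB.add_left, hB.add_right, hve, ve 0 3 (by decide), vv 0 6 (by decide), ve 1 0 (by decide),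
      ve 1 3 (by decide), vv 1 6 (by decide), ve 2 0 (by decide), ve 2 3 (by decide), vv 2 6 (by decide)]
    ring
  have hcb : QuadraticMap.polar Q c b = 1 := by
    simp only [hb, hc, hB.add_left, hB.add_right, hev, ev 0 3 (by decide), ev 0 4 (by decide), ev 0 5 (by decide),
      ev 3 4 (by decide), ev 3 5 (by decide), vv 6 3 (by decide), vv 6 4 (by decide), vv 6 5 (by decide)]
    ring
  have hac' : QuadraticMap.polar Q a' c' = 1 := by
    simp only [ha', hc', hB.add_left, hB.add_right, hef, ee 0 3 (by decide), ev 0 6 (by decide), vf 1 0 (by decide),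
      ve 1 3 (by decide), vv 1 6 (by decide)]
    ring
  have hcb' : QuadraticMap.polar Q c' b = 1 := by
    simp only [hb, hc', hB.add_left, hB.add_right, hev, fv 0 3 (by decide), fv 0 4 (by decide), fv 0 5 (by decide),
      ev 3 4 (by decide), ev 3 5 (by decide), vv 6 3 (by decide), vv 6 4 (by decide), vv 6 5 (by decide)]
    ring
  have hdiff : ∀ x y, Q x = 1 → Q y = 1 → QuadraticMap.polar Q x y = 1 → Q (x - y) ≠ 0 := fun x y hx hy hp h => by
    rw [sub_eq_add_neg, hnegv, hsum, hx, hy, hp] at h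
    exact one_ne_zero (α := F) (by linear_combination h - h2)
  have prod_mem : ∀ x y z : ι → F, (hx : Q x = 1) → (hy : Q y = 1) → (hz : Q z = 1) → QuadraticMap.polar Q x z = 1 →
      QuadraticMap.polar Q z y = 1 →
      refl hQ (hx ▸ one_ne_zero : Q x ≠ 0) * refl hQ (hy ▸ one_ne_zero : Q y ≠ 0) ∈ Cfsg.Geo.omegaGL Q := by
    intro x y z hx hy hz hxz hzy
    have h1 := pair_mem hQ (hx ▸ one_ne_zero : Q x ≠ 0) (hz.trans hx.symm) (hdiff x z hx hz hxz)
    have h2' := pair_mem hQ (hz ▸ one_ne_zero : Q z ≠ 0) (hy.trans hz.symm) (hdiff z y hz hy hzy)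
    have h := mul_mem h1 h2'
    rwa [mul_assoc, ← mul_assoc (refl hQ (hz ▸ one_ne_zero : Q z ≠ 0)) (refl hQ (hz ▸ one_ne_zero : Q z ≠ 0)), refl_sq, one_mul] at h
  have g1m := prod_mem a b c qa qb qc hac hcb
  have g2m := prod_mem a' b c' qa' qb qc' hac' hcb'
  set g1 := refl hQ (qa ▸ one_ne_zero : Q a ≠ 0) * refl hQ (qb ▸ one_ne_zero : Q b ≠ 0) with hg1
  set g2 := refl hQ (qa' ▸ one_ne_zero : Q a' ≠ 0) * refl hQ (qb ▸ one_ne_zero : Q b ≠ 0) with hg2
  -- the lattice is closed under addition, with pairings in the prime field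
  have unitpair : ∀ i, ∀ x ∈ D i, ∀ y ∈ D i, (x = 0 ∨ Q x = 1) → (y = 0 ∨ Q y = 1) →
      (x + y = 0 ∨ Q (x + y) = 1) ∧ (QuadraticMap.polar Q x y = 0 ∨ QuadraticMap.polar Q x y = 1) := by
    intro i x hx y hy hx' hy'
    rcases hx' with rfl | hx'
    · refine ⟨by rwa [zero_add], Or.inl ?_⟩
      rw [← zero_smul F y, hB.smul_left, zero_mul]
    rcases hy' with rfl | hy'
    · refine ⟨Or.inr (by rwa [add_zero]), Or.inl ?_⟩
      rw [← zero_smul F x, hB.smul_right, zero_mul]
    rcases units_pair hQ h2 hcube (hD'.finrank_eq i) (hD.decomp.nondegenerate i) (hplus i) hx hy hx' hy' with ⟨hxy, hp⟩ | hp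
    · exact ⟨Or.inl (by rw [hxy, ← two_smul F, h2, zero_smul]), Or.inl hp⟩
    · exact ⟨Or.inr (by rw [hsum, hx', hy', hp]; linear_combination h2), Or.inr hp⟩
  have hadd : ∀ x ∈ lattice hD' Q, ∀ y ∈ lattice hD' Q, x + y ∈ lattice hD' Q := fun x hx y hy i => by
    rw [map_add]; exact (unitpair i _ (comp_mem hD' i x) _ (comp_mem hD' i y) (hx i) (hy i)).1
  have hsingle : ∀ i, v i ∈ lattice hD' Q := fun i j => by
    rw [comp_of_mem hD' (hvD i)]
    split
    · exact Or.inr (hqv i)
    · exact Or.inl rfl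
  have hpol : ∀ j, ∀ x ∈ lattice hD' Q, QuadraticMap.polar Q (v j) x = 0 ∨ QuadraticMap.polar Q (v j) x = 1 := fun j x hx => by
    have h : QuadraticMap.polar Q (v j) x = QuadraticMap.polar Q (v j) (comp hD' j x) := by
      have hfun : ∀ y, QuadraticMap.polar Q (v j) y = QuadraticMap.polarBilin (toQ hQ) (v j) y := fun y => rfl
      rw [hfun, hfun]
      conv_lhs => rw [← sum_comp hD' x, map_sum]
      rw [Finset.sum_eq_single j]
      · intro i _ hi
        exact horth j i (Ne.symm hi) _ (hvD j) _ (comp_mem hD' i x)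
      · simp
    rw [h]
    exact (unitpair j _ (hvD j) _ (comp_mem hD' j x) (Or.inr (hqv j)) (hx j)).2
  have hpol3 : ∀ p q r : Fin t, ∀ x ∈ lattice hD' Q,
      QuadraticMap.polar Q (v p + v q + v r) x = 0 ∨ QuadraticMap.polar Q (v p + v q + v r) x = 1 := fun p q r x hx => by
    rw [hB.add_left, hB.add_left]
    rcases hpol p x hx with h | h <;> rcases hpol q x hx with h' | h' <;> rcases hpol r x hx with h'' | h'' <;>
      rw [h, h', h''] <;>
      first | (left; linear_combination h2; done) | (left; linear_combination (0 : F) * h2; done) |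
        (right; linear_combination h2; done) | (right; linear_combination (0 : F) * h2; done)
  have hmove : ∀ z, ∀ hz : Q z = 1, z ∈ lattice hD' Q → (∀ x ∈ lattice hD' Q, QuadraticMap.polar Q z x = 0 ∨ QuadraticMap.polar Q z x = 1) →
      ∀ x ∈ lattice hD' Q, (refl hQ (hz ▸ one_ne_zero : Q z ≠ 0)).1 *ᵥ x ∈ lattice hD' Q := by
    intro z hz hzL hzp x hx
    rw [refl_apply, hz, inv_one, one_mul]
    rcases hzp x hx with h | h <;> rw [h]
    · rwa [zero_smul, sub_zero]
    · rw [one_smul, sub_eq_add_neg, hnegv]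
      exact hadd x hx z hzL
  refine ⟨Cfsg.stabilizing (Cfsg.glToMat ι F) (lattice hD' Q) ⊓ Cfsg.Geo.omegaGL Q, lt_and_lt (le_inf ?_ inf_le_right)
    inf_le_right (x := g1) (y := g2) (Subgroup.mem_inf.2 ⟨mem_stabilizing ?_, g1m⟩) ?_ g2m ?_⟩
  · intro g hg
    obtain ⟨hgs, hgo⟩ := Subgroup.mem_inf.1 hg
    obtain ⟨σ, hσ⟩ := stab_perm hgs
    refine mem_stabilizing fun x hx i => ?_
    obtain ⟨j, rfl⟩ := σ.surjective i
    rw [comp_stab hD' hσ]
    rcases hx j with h | h
    · exact Or.inl (by rw [h, Matrix.mulVec_zero])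
    · exact Or.inr ((omega_preserves hgo _).trans h)
  · intro x hx
    rw [hg1, Units.val_mul, ← Matrix.mulVec_mulVec]
    exact hmove a qa (hadd _ (hadd _ (hsingle _) _ (hsingle _)) _ (hsingle _)) (hpol3 _ _ _) _
      (hmove b qb (hadd _ (hadd _ (hsingle _) _ (hsingle _)) _ (hsingle _)) (hpol3 _ _ _) x hx)
  · intro h
    refine not_stab (he (k 0)) ?_ (Subgroup.mem_inf.1 h).1
    intro j
    rw [hg1, Units.val_mul, ← Matrix.mulVec_mulVec, refl_fix hQ (a := b) (x := e (k 0)) _ (by
        simp only [hb, hB.add_left, ve 3 0 (by decide), ve 4 0 (by decide), ve 5 0 (by decide)]; ring),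
      refl_apply, qa, inv_one, one_mul,
      show QuadraticMap.polar Q a (e (k 0)) = 1 by
        simp only [ha, hB.add_left, hve, ve 1 0 (by decide), ve 2 0 (by decide)]; ring,
      one_smul, sub_eq_add_neg, hnegv]
    refine not_mem_of_comp hD' (i := k 1) (j := k 2) (fun e' => by simpa using hk e') ?_ ?_ j
    · simp [ha, comp_of_mem hD' (hvD _), comp_of_mem hD' (he _), hk.eq_iff]
      exact fun e' => one_ne_zero (α := F) (by rw [← hqv (k 1), e', ← zero_smul F (e (k 0)), hQ.smul]; ring)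
    · simp [ha, comp_of_mem hD' (hvD _), comp_of_mem hD' (he _), hk.eq_iff]
      exact fun e' => one_ne_zero (α := F) (by rw [← hqv (k 2), e', ← zero_smul F (e (k 0)), hQ.smul]; ring)
  · intro h
    have hL := (((Subgroup.mem_inf.1 h).1 (v (k 0)))).1 (hsingle _)
    rw [Units.coeHom_apply, hg2, Units.val_mul, ← Matrix.mulVec_mulVec, refl_fix hQ (a := b) (x := v (k 0)) _ (by
        simp only [hb, hB.add_left, vv 3 0 (by decide), vv 4 0 (by decide), vv 5 0 (by decide)]; ring),
      refl_apply, qa', inv_one, one_mul,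
      show QuadraticMap.polar Q a' (v (k 0)) = 1 by simp only [ha', hB.add_left, hev, vv 1 0 (by decide)]; ring,
      one_smul, sub_eq_add_neg, hnegv] at hL
    have hcm : comp hD' (k 0) (v (k 0) + a') = f (k 0) := by
      simp [ha', comp_of_mem hD' (hvD _), comp_of_mem hD' (he _), hk.eq_iff]
      have hv0 : v (k 0) = e (k 0) + f (k 0) := rfl
      rw [hv0, add_comm (e (k 0)) (f (k 0)), add_assoc, ← two_smul F, h2, zero_smul, add_zero]
    rcases hL (k 0) with h' | h' <;> rw [hcm] at h'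
    · exact one_ne_zero (α := F) (by rw [← hfe (k 0), h', ← zero_smul F (e (k 0)), hB.smul_left, zero_mul])
    · exact one_ne_zero (α := F) (h'.symm.trans (hqf _))

end CfsgLib.NonMax.PlaneLattice
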