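import Mathlib
import Cfsg.Prelude.Def_GeometricClasses
import Cfsg.Agent.Lib.NonMax.Tools
import Cfsg.Agent.Lib.NonMax.OmegaTools
import Cfsg.Agent.Lib.NonMax.Complement

/-! Over fields with two or three elements the stabiliser of a plus-type plane lies in a larger proper subgroup of `Ω`. -/
set_option autoImplicit false

namespace CfsgLib.NonMax.PlusPlane
open scoped Matrix
open CfsgLib.NonMax.Tools CfsgLib.NonMax.OmegaTools CfsgLib.NonMax.Complement

variable {ι : Type} [Fintype ι] [DecidableEq ι] {F : Type*} [Field F] [Fintype F] {Q : (ι → F) → F}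

theorem not_maximal (hQ : Cfsg.Geo.IsNondegenerateQuadraticForm Q) (hF : Fintype.card F ≤ 3) (hn : 7 ≤ Fintype.card ι)
    (W : Submodule F (ι → F)) (hdim : Module.finrank F W = 2) (hW : Cfsg.Geo.IsNondegenerateOn (QuadraticMap.polar Q) W)
    (hplus : Cfsg.Geo.IsPlusTypeOn Q W) :
    ∃ K : Subgroup (GL ι F), Cfsg.Geo.subspaceStabilizer W ⊓ Cfsg.Geo.omegaGL Q < K ∧ K < Cfsg.Geo.omegaGL Q := by
  classical
  have hB := hQ.polar_bilinear
  have hsum : ∀ u v, Q (u + v) = Q u + Q v + QuadraticMap.polar Q u v := fun u v => by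
    simp only [QuadraticMap.polar]; ring
  have hneg : ∀ u, Q (-u) = Q u := fun u => by rw [← neg_one_smul F u, hQ.smul]; ring
  have hBneg : ∀ u v, QuadraticMap.polar Q u (-v) = -QuadraticMap.polar Q u v := fun u v => by
    rw [← neg_one_smul F v, hB.smul_right]; ring
  have hcomm : ∀ u v, QuadraticMap.polar Q u v = QuadraticMap.polar Q v u := QuadraticMap.polar_comm Q
  -- basis of the plane
  obtain ⟨U, hUW, hUs, hUd⟩ := hplus
  obtain ⟨e, heU, he0⟩ := Submodule.exists_mem_ne_zero_of_ne_bot (p := U) (fun h => by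
    rw [h, finrank_bot, hdim] at hUd; omega)
  have heW := hUW heU
  have hqe := hUs e heU
  obtain ⟨y₀, hy₀, hne⟩ := (hW e heW he0).2
  set y₁ := (QuadraticMap.polar Q e y₀)⁻¹ • y₀ with hy₁
  have hy₁W : y₁ ∈ W := W.smul_mem _ hy₀
  have hey : QuadraticMap.polar Q e y₁ = 1 := by rw [hy₁, hB.smul_right, inv_mul_cancel₀ hne]
  clear_value y₁
  have hee : QuadraticMap.polar Q e e = 0 := by rw [polar_self hQ, hqe, mul_zero]
  obtain ⟨f, hfW, hqf, hef⟩ : ∃ f ∈ W, Q f = 0 ∧ QuadraticMap.polar Q e f = 1 := by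
    refine ⟨y₁ + (-Q y₁) • e, add_mem hy₁W (W.smul_mem _ heW), ?_, ?_⟩
    · rw [hsum, hB.smul_right, hcomm y₁ e, hey, hQ.smul, hqe]; ring
    · rw [hB.add_right, hB.smul_right, hey, hee]; ring
  have hff : QuadraticMap.polar Q f f = 0 := by rw [polar_self hQ, hqf, mul_zero]
  have hfe : QuadraticMap.polar Q f e = 1 := (hcomm f e).trans hef
  have hspan : ∀ w ∈ W, ∃ a b : F, w = a • e + b • f := by
    have hli : LinearIndependent F ![e, f] := by
      rw [LinearIndependent.pair_iff]
      intro s t hst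
      have h1 := congrArg (QuadraticMap.polar Q e) hst
      have h2 := congrArg (QuadraticMap.polar Q f) hst
      have h0 : ∀ u, QuadraticMap.polar Q u 0 = 0 := fun u => by rw [← zero_smul F e, hB.smul_right, zero_mul]
      rw [hB.add_right, hB.smul_right, hB.smul_right, hee, hef, h0] at h1
      rw [hB.add_right, hB.smul_right, hB.smul_right, hfe, hff, h0] at h2
      exact ⟨by linear_combination h2, by linear_combination h1⟩
    have hle : Submodule.span F {e, f} ≤ W := Submodule.span_le.2 fun y hy => by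
      rcases hy with rfl | rfl <;> assumption
    have hfr : Module.finrank F (Submodule.span F ({e, f} : Set (ι → F))) = 2 := by
      have := finrank_span_eq_card hli
      rw [Matrix.range_cons_cons_empty, Fintype.card_fin] at this
      exact this
    intro w hw
    rw [← Submodule.eq_of_le_of_finrank_eq hle (hfr.trans hdim.symm)] at hw
    obtain ⟨a, b, h⟩ := Submodule.mem_span_pair.1 hw
    exact ⟨a, b, h.symm⟩
  -- the complement
  have hX := nondeg_perp hQ hW
  have hXd : 5 ≤ Module.finrank F (perp hQ W) := by have := finrank_perp hQ hW; omega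
  obtain ⟨e1, he1, f1, hf1, e2, he2, f2, hf2, q1, q2, p12, q3, q4, p34, o1, o2, o3, o4⟩ := exists_pair_pair hQ hF hXd hX
  have oW : ∀ w ∈ W, ∀ x ∈ perp hQ W, QuadraticMap.polar Q w x = 0 := fun w hw x hx => mem_perp hQ |>.1 hx w hw
  have hdisj : ∀ x ∈ perp hQ W, x ∈ W → x = 0 := fun x hx hxW => by
    have h : x ∈ W ⊓ perp hQ W := ⟨hxW, hx⟩
    rwa [(isCompl_perp hQ hW).inf_eq_bot, Submodule.mem_bot] at h
  have hnot : ∀ w ∈ W, ∀ x ∈ perp hQ W, x ≠ 0 → w + x ∉ W := fun w hw x hx h0 h =>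
    h0 (hdisj x hx (by simpa using sub_mem h hw))
  have he10 : e1 ≠ 0 := fun h => by
    rw [h, ← zero_smul F e1, hB.smul_left, zero_mul] at p12
    exact zero_ne_one p12
  set S : Set (ι → F) := {x | x ∈ W ∧ Q x = 1} with hS
  -- first element: fixes `S`, moves `W`
  set a := (e + -f) + e1 with ha
  set b := e1 + -f1 with hb
  have hqx : Q (e + -f) = -1 := by rw [hsum, hneg, hqe, hqf, hBneg, hef]; ring
  have hqa : Q a = -1 := by rw [ha, hsum, hqx, q1, oW _ (add_mem heW (neg_mem hfW)) _ he1]; ring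
  have hqb : Q b = -1 := by rw [hb, hsum, hneg, q1, q2, hBneg, p12]; ring
  have hqab : Q (a - b) ≠ 0 := by
    have e' : a - b = (e + -f) + f1 := by rw [ha, hb]; abel
    rw [e', hsum, hqx, q2, oW _ (add_mem heW (neg_mem hfW)) _ hf1]
    simp
  have hqa0 : Q a ≠ 0 := by rw [hqa]; simp
  have g1m := pair_mem hQ hqa0 (hqb.trans hqa.symm) hqab
  set g1 := refl hQ hqa0 * refl hQ ((hqb.trans hqa.symm) ▸ hqa0 : Q b ≠ 0) with hg1
  have g1W : ∀ w ∈ W, g1.1 *ᵥ w = w - ((Q a)⁻¹ * QuadraticMap.polar Q a w) • a := fun w hw => by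
    rw [hg1, Units.val_mul, ← Matrix.mulVec_mulVec, refl_fix hQ (a := b) (x := w) _ (by
      rw [hcomm]; exact oW w hw b (add_mem he1 (neg_mem hf1))), refl_apply]
  have g1v : ∀ x ∈ S, g1.1 *ᵥ x = x := by
    rintro x ⟨hxW, hx1⟩
    rw [g1W x hxW]
    obtain ⟨s, t, rfl⟩ := hspan x hxW
    have hst : s * t = 1 := by
      rw [hsum, hQ.smul, hQ.smul, hqe, hqf, hB.smul_left, hB.smul_right, hef] at hx1
      linear_combination hx1
    have hss : s = t := by
      have h2F : 2 ≤ Fintype.card F := Fintype.one_lt_card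
      have hs0 : s ≠ 0 := left_ne_zero_of_mul_eq_one hst
      have := FiniteField.pow_card_sub_one_eq_one s hs0
      obtain hq | hq : Fintype.card F = 2 ∨ Fintype.card F = 3 := by omega
      · rw [hq] at this; simp at this; rw [this] at hst ⊢; rw [one_mul] at hst; exact hst.symm
      · rw [hq] at this
        calc s = s * (s * t) := by rw [hst, mul_one]
        _ = (s ^ 2) * t := by ring
        _ = t := by rw [show s ^ 2 = 1 from this, one_mul]
    have : QuadraticMap.polar Q a (s • e + t • f) = 0 := by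
      rw [ha, hB.add_left, hB.add_left, hB.add_right, hB.add_right, hB.add_right, hB.smul_right, hB.smul_right,
        hB.smul_right, hB.smul_right, hB.smul_right, hB.smul_right, hee, hef, hcomm (-f) e, hcomm (-f) f, hBneg, hBneg,
        hef, hff, hcomm e1 e, hcomm e1 f, oW e heW e1 he1, oW f hfW e1 he1, hss]
      ring
    rw [this, mul_zero, zero_smul, sub_zero]
  -- second element: moves `S`
  set a' := e + (e1 + f1) with ha'
  set b' := (e2 + f2) + e1 with hb'
  have qu : Q (e1 + f1) = 1 := by rw [hsum, q1, q2, p12]; ring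
  have qw : Q (e2 + f2) = 1 := by rw [hsum, q3, q4, p34]; ring
  have hqa' : Q a' = 1 := by rw [ha', hsum, hqe, qu, oW e heW _ (add_mem he1 hf1)]; ring
  have hqb' : Q b' = 1 := by
    rw [hb', hsum, qw, q1, hB.add_left, hcomm e2 e1, hcomm f2 e1, o1, o2]; ring
  have hb'X : b' ∈ perp hQ W := add_mem (add_mem he2 hf2) he1
  have hqd' : Q (a' - b') ≠ 0 := by
    rw [sub_eq_add_neg, hsum, hneg, hqa', hqb', hBneg, ha', hB.add_left, oW e heW b' hb'X, hb', hB.add_right, hB.add_right,
      hB.add_left, hB.add_left, hB.add_left, o1, o2, o3, o4, hcomm f1 e1, p12,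
      show QuadraticMap.polar Q e1 e1 = 0 by rw [polar_self hQ, q1, mul_zero]]
    intro h
    apply one_ne_zero (α := F)
    linear_combination h
  have hqa0' : Q a' ≠ 0 := by rw [hqa']; exact one_ne_zero
  have g2m := pair_mem hQ hqa0' (hqb'.trans hqa'.symm) hqd'
  set g2 := refl hQ hqa0' * refl hQ ((hqb'.trans hqa'.symm) ▸ hqa0' : Q b' ≠ 0) with hg2
  have hvS : e + f ∈ S := ⟨add_mem heW hfW, by rw [hsum, hqe, hqf, hef]; ring⟩
  refine ⟨Cfsg.stabilizing (Cfsg.glToMat ι F) S ⊓ Cfsg.Geo.omegaGL Q, lt_and_lt (le_inf ?_ inf_le_right) inf_le_right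
    (x := g1) (y := g2) (Subgroup.mem_inf.2 ⟨mem_stabilizing fun x hx => (g1v x hx).symm ▸ hx, g1m⟩) ?_ g2m ?_⟩
  · intro g hg
    obtain ⟨hg1', hg2'⟩ := Subgroup.mem_inf.1 hg
    exact mem_stabilizing fun x hx => ⟨(hg1' x).1 hx.1, (omega_preserves hg2' x).trans hx.2⟩
  · intro h
    have h' : g1.1 *ᵥ e ∈ W := ((Subgroup.mem_inf.1 h).1 e).1 heW
    rw [g1W e heW, hqa, ha, hB.add_left, hB.add_left, hee, hcomm (-f) e, hBneg, hef, hcomm e1 e, oW e heW e1 he1] at h'
    refine hnot f hfW (-e1) (neg_mem he1) (neg_ne_zero.2 he10) ?_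
    convert h' using 1
    have hc : ((-1 : F))⁻¹ * (0 + -1 + 0) = 1 := by rw [inv_neg, inv_one]; ring
    rw [hc, one_smul]
    abel
  · intro h
    have h' : g2.1 *ᵥ (e + f) ∈ W := (((Subgroup.mem_inf.1 h).1 (e + f)).1 hvS).1
    have hu : e1 + f1 ∈ perp hQ W := add_mem he1 hf1
    rw [hg2, Units.val_mul, ← Matrix.mulVec_mulVec, refl_fix hQ (a := b') (x := e + f) _ (by
      rw [hcomm]; exact oW _ (add_mem heW hfW) b' hb'X), refl_apply, hqa', ha', hB.add_left, hB.add_right, hee, hef,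
      hcomm (e1 + f1) (e + f), oW _ (add_mem heW hfW) _ hu] at h'
    refine hnot f hfW (-(e1 + f1)) (neg_mem hu) (fun e' => ?_) ?_
    · rw [← hneg, e', ← zero_smul F e, hQ.smul] at qu
      simp at qu
    · convert h' using 1
      simp only [zero_add, add_zero, inv_one, one_mul, one_smul]
      abel

end CfsgLib.NonMax.PlusPlane
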