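import Mathlib
import Cfsg.Prelude.Def_GeometricClasses
import Cfsg.Agent.Lib.NonMax.Tools
import Cfsg.Agent.Lib.NonMax.OmegaTools
import Cfsg.Agent.Lib.NonMax.Complement

/-! The two families of maximal totally singular subspaces of a hyperbolic space, and their preservation by `Ω`. -/
set_option autoImplicit false

namespace CfsgLib.NonMax.SingularFamilies
open scoped Matrix
open CfsgLib.NonMax.OmegaTools CfsgLib.NonMax.Complement CfsgLib.NonMax.Tools

variable {ι : Type} [Fintype ι] [DecidableEq ι] {F : Type*} [Field F] {Q : (ι → F) → F} {m : ℕ}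

/-- totally singular of dimension `m` -/
def TS (Q : (ι → F) → F) (m : ℕ) (U : Submodule F (ι → F)) : Prop := Module.finrank F U = m ∧ ∀ u ∈ U, Q u = 0

theorem polar_ts {U : Submodule F (ι → F)} (hU : ∀ u ∈ U, Q u = 0) {u v : ι → F} (hu : u ∈ U) (hv : v ∈ U) :
    QuadraticMap.polar Q u v = 0 := by
  simp only [QuadraticMap.polar, hU _ hu, hU _ hv, hU _ (add_mem hu hv), sub_zero]

theorem finrank_perp' (hQ : Cfsg.Geo.IsNondegenerateQuadraticForm Q) (W : Submodule F (ι → F)) :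
    Module.finrank F (perp hQ W) + Module.finrank F W = Fintype.card ι := by
  have h := LinearMap.BilinForm.finrank_orthogonal (nondegenerate hQ) W
  have h' := W.finrank_le
  rw [Module.finrank_fintype_fun_eq_card] at h h'
  rw [perp, h]
  omega

theorem le_perp (hQ : Cfsg.Geo.IsNondegenerateQuadraticForm Q) {U : Submodule F (ι → F)} (hU : ∀ u ∈ U, Q u = 0) :
    U ≤ perp hQ U := fun _ hu => (mem_perp hQ).2 fun _ hw => polar_ts hU hw hu

theorem ts_le (hQ : Cfsg.Geo.IsNondegenerateQuadraticForm Q) (hn : Fintype.card ι = 2 * m) {U : Submodule F (ι → F)}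
    (hU : ∀ u ∈ U, Q u = 0) : Module.finrank F U ≤ m := by
  have h1 := Submodule.finrank_mono (le_perp hQ hU)
  have h2 := finrank_perp' hQ U
  omega

theorem perp_eq (hQ : Cfsg.Geo.IsNondegenerateQuadraticForm Q) (hn : Fintype.card ι = 2 * m) {U : Submodule F (ι → F)}
    (hU : TS Q m U) : perp hQ U = U := by
  refine (Submodule.eq_of_le_of_finrank_eq (le_perp hQ hU.2) ?_).symm
  have h2 := finrank_perp' hQ U
  have := hU.1
  omega

theorem q_add (u v : ι → F) : Q (u + v) = Q u + Q v + QuadraticMap.polar Q u v := by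
  simp only [QuadraticMap.polar]; ring

theorem q_smul_add (hQ : Cfsg.Geo.IsNondegenerateQuadraticForm Q) (a : F) (u v : ι → F) :
    Q (u + a • v) = Q u + a ^ 2 * Q v + a * QuadraticMap.polar Q u v := by
  rw [q_add (Q := Q), hQ.smul, hQ.polar_bilinear.smul_right]

/-- adjoining a singular orthogonal vector -/
theorem ts_sup (hQ : Cfsg.Geo.IsNondegenerateQuadraticForm Q) (hn : Fintype.card ι = 2 * m) {H : Submodule F (ι → F)}
    (hH : ∀ h ∈ H, Q h = 0) (hd : Module.finrank F H + 1 = m) {x : ι → F} (hxH : x ∈ perp hQ H) (hx : Q x = 0)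
    (hxn : x ∉ H) : TS Q m (H ⊔ Submodule.span F {x}) := by
  have hs : ∀ z ∈ H ⊔ Submodule.span F {x}, Q z = 0 := fun z hz => by
    obtain ⟨h, hh, y, hy, rfl⟩ := Submodule.mem_sup.1 hz
    obtain ⟨a, rfl⟩ := Submodule.mem_span_singleton.1 hy
    rw [q_smul_add hQ, hH h hh, hx, (mem_perp hQ).1 hxH h hh]; ring
  refine ⟨le_antisymm (ts_le hQ hn hs) ?_, hs⟩
  have hlt : H < H ⊔ Submodule.span F {x} := lt_of_le_not_ge le_sup_left fun h =>
    hxn (h (Submodule.mem_sup_right (Submodule.mem_span_singleton_self x)))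
  have := Submodule.finrank_lt_finrank_of_lt hlt
  omega

theorem exists_new (hQ : Cfsg.Geo.IsNondegenerateQuadraticForm Q) (hn : Fintype.card ι = 2 * m) {H U : Submodule F (ι → F)}
    (hH : ∀ h ∈ H, Q h = 0) (hd : Module.finrank F H + 1 = m) (hU : TS Q m U) :
    ∃ u ∈ U, u ∈ perp hQ H ∧ u ∉ H := by
  by_contra hno
  push Not at hno
  have hle : U ⊓ perp hQ H ≤ U ⊓ H := fun z hz => ⟨hz.1, hno z hz.1 hz.2⟩
  have h1 := Submodule.finrank_mono hle
  -- dimension of `U + H⊥`
  have h2 : U ⊔ perp hQ H ≤ perp hQ (U ⊓ H) := sup_le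
    (fun z hz => (mem_perp hQ).2 fun w hw => polar_ts hU.2 hw.1 hz)
    (fun z hz => (mem_perp hQ).2 fun w hw => (mem_perp hQ).1 hz w hw.2)
  have h3 := Submodule.finrank_mono h2
  have h4 := Submodule.finrank_sup_add_finrank_inf_eq U (perp hQ H)
  have h5 := finrank_perp' hQ H
  have h6 := finrank_perp' hQ (U ⊓ H)
  have := hU.1
  omega

theorem exists_above (hQ : Cfsg.Geo.IsNondegenerateQuadraticForm Q) (hn : Fintype.card ι = 2 * m) {H U : Submodule F (ι → F)}
    (hH : ∀ h ∈ H, Q h = 0) (hd : Module.finrank F H + 1 = m) (hU : TS Q m U) : ∃ W, TS Q m W ∧ H ≤ W := by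
  obtain ⟨u, hu, huH, hun⟩ := exists_new hQ hn hH hd hU
  exact ⟨_, ts_sup hQ hn hH hd huH (hU.2 u hu) hun, le_sup_left⟩

/-- exactly two maximal singular subspaces through a hyperplane -/
theorem other (hQ : Cfsg.Geo.IsNondegenerateQuadraticForm Q) (hn : Fintype.card ι = 2 * m) {H W : Submodule F (ι → F)}
    (hH : ∀ h ∈ H, Q h = 0) (hd : Module.finrank F H + 1 = m) (hW : TS Q m W) (hHW : H ≤ W) :
    ∃ W', TS Q m W' ∧ H ≤ W' ∧ W' ≠ W ∧ (∀ x ∈ perp hQ H, Q x = 0 → x ∈ W ∨ x ∈ W') ∧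
      ∀ X, TS Q m X → H ≤ X → X = W ∨ X = W' := by
  have hB := hQ.polar_bilinear
  obtain ⟨w, hw, hwH⟩ : ∃ w ∈ W, w ∉ H := by
    by_contra hno
    push Not at hno
    have := Submodule.finrank_mono (show W ≤ H from hno)
    have := hW.1
    omega
  have hHw : H ⊔ Submodule.span F {w} = W := by
    refine Submodule.eq_of_le_of_finrank_eq (sup_le hHW ((Submodule.span_singleton_le_iff_mem w W).2 hw)) ?_
    rw [hW.1, (ts_sup hQ hn hH hd ((mem_perp hQ).2 fun a ha => polar_ts hW.2 (hHW ha) hw) (hW.2 w hw) hwH).1]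
  have hWperp : W ≤ perp hQ H := fun z hz => (mem_perp hQ).2 fun a ha => polar_ts hW.2 (hHW ha) hz
  obtain ⟨h, hh, hhW⟩ : ∃ h ∈ perp hQ H, h ∉ W := by
    by_contra hno
    push Not at hno
    have := Submodule.finrank_mono (show perp hQ H ≤ W from hno)
    have := finrank_perp' hQ H
    have := hW.1
    omega
  have hpne : QuadraticMap.polar Q w h ≠ 0 := fun e => hhW (by
    rw [← perp_eq hQ hn hW, mem_perp hQ]
    intro z hz
    rw [← hHw] at hz
    obtain ⟨a, ha, b, hb, rfl⟩ := Submodule.mem_sup.1 hz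
    obtain ⟨c, rfl⟩ := Submodule.mem_span_singleton.1 hb
    rw [hB.add_left, hB.smul_left, e, (mem_perp hQ).1 hh a ha]; ring)
  set p := QuadraticMap.polar Q w h with hp
  obtain ⟨x₀, hx₀⟩ : ∃ x₀, x₀ = h + (-(Q h / p)) • w := ⟨_, rfl⟩
  have hx₀p : x₀ ∈ perp hQ H := hx₀ ▸ add_mem hh (Submodule.smul_mem _ _ (hWperp hw))
  have hx₀q : Q x₀ = 0 := by
    rw [hx₀, q_smul_add hQ, hW.2 w hw, QuadraticMap.polar_comm Q h w, ← hp]; field_simp; ring
  have hx₀W : x₀ ∉ W := fun e => hhW (by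
    have := add_mem e (W.smul_mem (Q h / p) hw)
    rwa [hx₀, add_assoc, ← add_smul, neg_add_cancel, zero_smul, add_zero] at this)
  have hW' := ts_sup hQ hn hH hd hx₀p hx₀q fun e => hx₀W (hHW e)
  have hcover : ∀ x ∈ perp hQ H, Q x = 0 → x ∈ W ∨ x ∈ H ⊔ Submodule.span F {x₀} := by
    intro x hx hqx
    have hsup : W ⊔ Submodule.span F {x₀} = perp hQ H := by
      refine Submodule.eq_of_le_of_finrank_eq (sup_le hWperp ((Submodule.span_singleton_le_iff_mem _ _).2 hx₀p)) ?_
      have hlt : W < W ⊔ Submodule.span F {x₀} := lt_of_le_not_ge le_sup_left fun e =>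
        hx₀W (e (Submodule.mem_sup_right (Submodule.mem_span_singleton_self _)))
      have h1 := Submodule.finrank_lt_finrank_of_lt hlt
      have h2 := Submodule.finrank_mono (sup_le hWperp ((Submodule.span_singleton_le_iff_mem _ _).2 hx₀p))
      have h3 := finrank_perp' hQ H
      have := hW.1
      omega
    rw [← hsup] at hx
    obtain ⟨a, ha, b, hb, rfl⟩ := Submodule.mem_sup.1 hx
    obtain ⟨β, rfl⟩ := Submodule.mem_span_singleton.1 hb
    rcases eq_or_ne β 0 with e | e
    · exact Or.inl (by rw [e, zero_smul, add_zero]; exact ha)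
    refine Or.inr ?_
    rw [← hHw] at ha
    obtain ⟨η, hη, d, hd', rfl⟩ := Submodule.mem_sup.1 ha
    obtain ⟨α, rfl⟩ := Submodule.mem_span_singleton.1 hd'
    have hpx : QuadraticMap.polar Q (η + α • w) x₀ = α * p := by
      rw [hB.add_left, hB.smul_left, (mem_perp hQ).1 hx₀p η hη, zero_add]
      congr 1
      rw [hx₀, hB.add_right, hB.smul_right, polar_ts hW.2 hw hw, ← hp]; ring
    rw [q_smul_add hQ, hx₀q, hpx, hW.2 _ (add_mem (hHW hη) (W.smul_mem α hw))] at hqx
    have hα : α = 0 := by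
      have : β * (α * p) = 0 := by linear_combination hqx
      exact (mul_eq_zero.1 ((mul_eq_zero.1 this).resolve_left e)).resolve_right hpne
    rw [hα, zero_smul, add_zero]
    exact add_mem (Submodule.mem_sup_left hη) (Submodule.smul_mem _ _ (Submodule.mem_sup_right (Submodule.mem_span_singleton_self _)))
  refine ⟨_, hW', le_sup_left, fun e => hx₀W (e ▸ Submodule.mem_sup_right (Submodule.mem_span_singleton_self _)), hcover,
    fun X hX hHX => ?_⟩
  obtain ⟨x, hx, hxH⟩ : ∃ x ∈ X, x ∉ H := by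
    by_contra hno
    push Not at hno
    have := Submodule.finrank_mono (show X ≤ H from hno)
    have := hX.1
    omega
  have hxp : x ∈ perp hQ H := (mem_perp hQ).2 fun a ha => polar_ts hX.2 (hHX ha) hx
  have hxeq : H ⊔ Submodule.span F {x} = X := by
    refine Submodule.eq_of_le_of_finrank_eq (sup_le hHX ((Submodule.span_singleton_le_iff_mem x X).2 hx)) ?_
    rw [hX.1, (ts_sup hQ hn hH hd hxp (hX.2 x hx) hxH).1]
  rcases hcover x hxp (hX.2 x hx) with hc | hc
  · left
    rw [← hxeq]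
    exact Submodule.eq_of_le_of_finrank_eq (sup_le hHW ((Submodule.span_singleton_le_iff_mem x W).2 hc))
      (by rw [hxeq, hX.1, hW.1])
  · right
    rw [← hxeq]
    exact Submodule.eq_of_le_of_finrank_eq (sup_le le_sup_left ((Submodule.span_singleton_le_iff_mem x _).2 hc))
      (by rw [hxeq, hX.1, hW'.1])

/-- intersections with the two subspaces through a hyperplane differ by one -/
theorem step (hQ : Cfsg.Geo.IsNondegenerateQuadraticForm Q) (hn : Fintype.card ι = 2 * m) {H W W' U : Submodule F (ι → F)}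
    (hH : ∀ h ∈ H, Q h = 0) (hd : Module.finrank F H + 1 = m) (hW : TS Q m W) (hW' : TS Q m W') (hHW : H ≤ W)
    (hHW' : H ≤ W') (hne : W' ≠ W) (hU : TS Q m U) :
    (Module.finrank F ↥(U ⊓ W) = Module.finrank F ↥(U ⊓ H) + 1 ∧ Module.finrank F ↥(U ⊓ W') = Module.finrank F ↥(U ⊓ H)) ∨
    (Module.finrank F ↥(U ⊓ W) = Module.finrank F ↥(U ⊓ H) ∧ Module.finrank F ↥(U ⊓ W') = Module.finrank F ↥(U ⊓ H) + 1) := by
  obtain ⟨W'', hW'', hHW'', hne'', hcov, huniq⟩ := other hQ hn hH hd hW hHW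
  have heq : W' = W'' := (huniq W' hW' hHW').resolve_left hne
  subst heq
  have hbound : ∀ X, TS Q m X → H ≤ X → Module.finrank F ↥(U ⊓ H) ≤ Module.finrank F ↥(U ⊓ X) ∧
      Module.finrank F ↥(U ⊓ X) ≤ Module.finrank F ↥(U ⊓ H) + 1 := fun X hX hHX => by
    refine ⟨Submodule.finrank_mono (inf_le_inf_left _ hHX), ?_⟩
    have h1 := Submodule.finrank_sup_add_finrank_inf_eq (U ⊓ X) H
    rw [inf_assoc, inf_eq_right.2 hHX] at h1
    have h2 := Submodule.finrank_mono (sup_le inf_le_right hHX : (U ⊓ X) ⊔ H ≤ X)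
    have := hX.1
    omega
  obtain ⟨b1, b2⟩ := hbound W hW hHW
  obtain ⟨b3, b4⟩ := hbound W' hW' hHW'
  have notboth : ¬ (Module.finrank F ↥(U ⊓ H) < Module.finrank F ↥(U ⊓ W) ∧
      Module.finrank F ↥(U ⊓ H) < Module.finrank F ↥(U ⊓ W')) := by
    rintro ⟨c1, c2⟩
    obtain ⟨u₁, hu₁, hu₁'⟩ : ∃ u ∈ U ⊓ W, u ∉ H := by
      by_contra hno
      push Not at hno
      exact absurd (Submodule.finrank_mono (show U ⊓ W ≤ U ⊓ H from fun z hz => ⟨hz.1, hno z hz⟩)) (not_le.2 c1)
    obtain ⟨u₂, hu₂, hu₂'⟩ : ∃ u ∈ U ⊓ W', u ∉ H := by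
      by_contra hno
      push Not at hno
      exact absurd (Submodule.finrank_mono (show U ⊓ W' ≤ U ⊓ H from fun z hz => ⟨hz.1, hno z hz⟩)) (not_le.2 c2)
    have hu₁W' : u₁ ∉ W' := fun e => hne (by
      have hp : u₁ ∈ perp hQ H := (mem_perp hQ).2 fun a ha => polar_ts hW.2 (hHW ha) hu₁.2
      have hts := ts_sup hQ hn hH hd hp (hU.2 _ hu₁.1) hu₁'
      have e1 := Submodule.eq_of_le_of_finrank_eq (sup_le hHW' ((Submodule.span_singleton_le_iff_mem u₁ W').2 e))
        (hts.1.trans hW'.1.symm)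
      have e2 := Submodule.eq_of_le_of_finrank_eq (sup_le hHW ((Submodule.span_singleton_le_iff_mem u₁ W).2 hu₁.2))
        (hts.1.trans hW.1.symm)
      rw [← e1, e2])
    have horth : ∀ z ∈ W', QuadraticMap.polar Q z u₁ = 0 := fun z hz => by
      have heq : H ⊔ Submodule.span F {u₂} = W' :=
        Submodule.eq_of_le_of_finrank_eq (sup_le hHW' ((Submodule.span_singleton_le_iff_mem u₂ W').2 hu₂.2))
          ((ts_sup hQ hn hH hd ((mem_perp hQ).2 fun a ha => polar_ts hW'.2 (hHW' ha) hu₂.2) (hU.2 _ hu₂.1) hu₂').1.trans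
            hW'.1.symm)
      rw [← heq] at hz
      obtain ⟨a, ha, b, hb, rfl⟩ := Submodule.mem_sup.1 hz
      obtain ⟨c, rfl⟩ := Submodule.mem_span_singleton.1 hb
      rw [hQ.polar_bilinear.add_left, hQ.polar_bilinear.smul_left, polar_ts hW.2 (hHW ha) hu₁.2,
        polar_ts hU.2 hu₂.1 hu₁.1]
      ring
    exact hu₁W' (by rw [← perp_eq hQ hn hW']; exact (mem_perp hQ).2 horth)
  have someone : Module.finrank F ↥(U ⊓ H) < Module.finrank F ↥(U ⊓ W) ∨
      Module.finrank F ↥(U ⊓ H) < Module.finrank F ↥(U ⊓ W') := by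
    obtain ⟨u, hu, huH, hun⟩ := exists_new hQ hn hH hd hU
    have hlt : ∀ X, H ≤ X → u ∈ X → Module.finrank F ↥(U ⊓ H) < Module.finrank F ↥(U ⊓ X) := fun X hHX huX =>
      Submodule.finrank_lt_finrank_of_lt (lt_of_le_not_ge (inf_le_inf_left _ hHX) fun e => hun (e ⟨hu, huX⟩).2)
    exact (hcov u huH (hU.2 u hu)).imp (hlt W hHW) (hlt W' hHW')
  omega

theorem exists_hyperplane {W S : Submodule F (ι → F)} (hSW : S ≤ W) (hlt : Module.finrank F S < Module.finrank F W) :
    ∃ H, S ≤ H ∧ H ≤ W ∧ Module.finrank F H + 1 = Module.finrank F W := by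
  have hne : S.comap W.subtype < ⊤ := by
    refine lt_top_iff_ne_top.2 fun e => ?_
    have := Submodule.finrank_mono (show W ≤ S from fun z hz =>
      (e ▸ Submodule.mem_top : (⟨z, hz⟩ : W) ∈ S.comap W.subtype))
    omega
  obtain ⟨φ, hφ, hle⟩ := Submodule.exists_le_ker_of_lt_top _ hne
  refine ⟨(LinearMap.ker φ).map W.subtype, fun z hz => ⟨⟨z, hSW hz⟩, hle hz, rfl⟩, Submodule.map_subtype_le _ _, ?_⟩
  rw [Submodule.finrank_map_subtype_eq]
  exact Module.Dual.finrank_ker_add_one_of_ne_zero hφ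

/-- the parity relation -/
theorem parity (hQ : Cfsg.Geo.IsNondegenerateQuadraticForm Q) (hn : Fintype.card ι = 2 * m) {U W X : Submodule F (ι → F)}
    (hU : TS Q m U) (hW : TS Q m W) (hX : TS Q m X) :
    Even ((m - Module.finrank F ↥(U ⊓ W)) + (m - Module.finrank F ↥(W ⊓ X)) + (m - Module.finrank F ↥(U ⊓ X))) := by
  induction hk : m - Module.finrank F ↥(W ⊓ X) generalizing W with
  | zero =>
    have hle : Module.finrank F ↥(W ⊓ X) ≤ m := (Submodule.finrank_mono inf_le_left).trans hW.1.le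
    have e1 := Submodule.eq_of_le_of_finrank_eq (inf_le_left : W ⊓ X ≤ W) (by rw [hW.1]; omega)
    have e2 := Submodule.eq_of_le_of_finrank_eq (inf_le_right : W ⊓ X ≤ X) (by rw [hX.1]; omega)
    rw [show W = X from e1.symm.trans e2, add_zero]
    exact ⟨_, rfl⟩
  | succ k ih =>
    have hWm := hW.1
    obtain ⟨H, hSH, hHW, hd⟩ := exists_hyperplane (inf_le_left : W ⊓ X ≤ W) (by omega)
    rw [hWm] at hd
    have hH : ∀ h ∈ H, Q h = 0 := fun h hh => hW.2 h (hHW hh)
    obtain ⟨W', hW', hHW', hne, -, -⟩ := other hQ hn hH hd hW hHW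
    have hXH : X ⊓ H = W ⊓ X := le_antisymm (le_inf (inf_le_right.trans hHW) inf_le_left) (le_inf inf_le_right hSH)
    have hstepX := step hQ hn hH hd hW hW' hHW hHW' hne hX
    rw [hXH, inf_comm X W] at hstepX
    have hk' : m - Module.finrank F ↥(W' ⊓ X) = k := by rw [inf_comm W' X]; omega
    have hstepU := step hQ hn hH hd hW hW' hHW hHW' hne hU
    have := ih hW' hk'
    rw [Nat.even_iff] at this ⊢
    have h1 : Module.finrank F ↥(U ⊓ W) ≤ m := (Submodule.finrank_mono inf_le_left).trans hU.1.le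
    have h2 : Module.finrank F ↥(U ⊓ W') ≤ m := (Submodule.finrank_mono inf_le_left).trans hU.1.le
    omega

/-! ### `Ω` preserves the families -/

theorem map_mulVec_injective (g : GL ι F) : Function.Injective (Matrix.toLin' g.1) := fun u v e => by
  have := congrArg (fun z => (g⁻¹ : GL ι F).1 *ᵥ z) e
  simpa [Matrix.toLin'_apply, Matrix.mulVec_mulVec] using this

theorem finrank_map (g : GL ι F) (U : Submodule F (ι → F)) :
    Module.finrank F (U.map (Matrix.toLin' g.1)) = Module.finrank F U :=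
  (Submodule.equivMapOfInjective _ (map_mulVec_injective g) U).symm.finrank_eq

theorem ts_map {g : GL ι F} (hg : ∀ v, Q (g.1 *ᵥ v) = Q v) {U : Submodule F (ι → F)} (hU : TS Q m U) :
    TS Q m (U.map (Matrix.toLin' g.1)) := by
  refine ⟨(finrank_map g U).trans hU.1, ?_⟩
  rintro _ ⟨u, hu, rfl⟩
  rw [Matrix.toLin'_apply, hg]
  exact hU.2 u hu

theorem omega_parity (hQ : Cfsg.Geo.IsNondegenerateQuadraticForm Q) (hn : Fintype.card ι = 2 * m) {U : Submodule F (ι → F)}
    (hU : TS Q m U) {g : GL ι F} (hg : g ∈ Cfsg.Geo.omegaGL Q) :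
    Even (m - Module.finrank F ↥(U ⊓ U.map (Matrix.toLin' g.1))) := by
  have hiso : ∀ a : Cfsg.isometryGroup F Q, ∀ v, Q (a.1.1 *ᵥ v) = Q v := fun a v => a.2 v 0
  let d : Cfsg.isometryGroup F Q → ℕ := fun a => m - Module.finrank F ↥(U ⊓ U.map (Matrix.toLin' a.1.1))
  have hadd : ∀ a b, ((d (a * b) : ℕ) : ZMod 2) = d a + d b := fun a b => by
    have hmap : U.map (Matrix.toLin' (a * b).1.1) = (U.map (Matrix.toLin' b.1.1)).map (Matrix.toLin' a.1.1) := by
      rw [← Submodule.map_comp, ← Matrix.toLin'_mul]; rfl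
    have h := parity hQ hn hU (ts_map (hiso a) hU) (ts_map (hiso (a * b)) hU)
    have hinf : Module.finrank F ↥(U.map (Matrix.toLin' a.1.1) ⊓ U.map (Matrix.toLin' (a * b).1.1)) =
        Module.finrank F ↥(U ⊓ U.map (Matrix.toLin' b.1.1)) := by
      rw [hmap, ← Submodule.map_inf _ (map_mulVec_injective a.1), finrank_map]
    rw [hinf] at h
    have h' : ((d a + d b + d (a * b) : ℕ) : ZMod 2) = 0 := (ZMod.natCast_eq_zero_iff_even).2 h
    push_cast at h'
    have h22 : (2 : ZMod 2) = 0 := by decide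
    linear_combination h' - ((d a : ZMod 2) + (d b : ZMod 2)) * h22
  have hone : ((d 1 : ℕ) : ZMod 2) = 0 := by
    have := hadd 1 1
    rw [one_mul] at this
    linear_combination -this
  let χ : Cfsg.isometryGroup F Q →* Multiplicative (ZMod 2) :=
    { toFun := fun a => Multiplicative.ofAdd ((d a : ℕ) : ZMod 2)
      map_one' := by rw [hone]; rfl
      map_mul' := fun a b => by rw [hadd]; rfl }
  obtain ⟨a, ha, rfl⟩ := hg
  have : χ a = 1 := Abelianization.commutator_subset_ker χ ha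
  exact (ZMod.natCast_eq_zero_iff_even).1 (Multiplicative.ofAdd.injective this)

/-! ### Siegel transformations as commutators -/

theorem siegel (hQ : Cfsg.Geo.IsNondegenerateQuadraticForm Q) {u v x y : ι → F} (hu : Q u = 0) (hv : Q v = 0) (hx : Q x = 0)
    (hy : Q y = 0) (huv : QuadraticMap.polar Q u v = 0) (hux : QuadraticMap.polar Q u x = 0)
    (huy : QuadraticMap.polar Q u y = 0) (hvx : QuadraticMap.polar Q v x = 0) (hvy : QuadraticMap.polar Q v y = 0)
    (hxy : QuadraticMap.polar Q x y = 1) :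
    ∃ g ∈ Cfsg.Geo.omegaGL Q, ∀ z, g.1 *ᵥ z = z + QuadraticMap.polar Q z v • u - QuadraticMap.polar Q z u • v := by
  have hB := hQ.polar_bilinear
  have hc : ∀ a b, QuadraticMap.polar Q b a = QuadraticMap.polar Q a b := fun a b => QuadraticMap.polar_comm Q b a
  have hzero : ∀ a, Q a = 0 → QuadraticMap.polar Q a a = 0 := fun a ha => by rw [polar_self hQ, ha, mul_zero]
  have mk : ∀ p r, Q p = 0 → Q r = 0 → QuadraticMap.polar Q p r = 0 → ∃ g ∈ Cfsg.isometryGroup F Q,
      (∀ z, g.1 *ᵥ z = z + (QuadraticMap.polar Q z p • r - QuadraticMap.polar Q z r • p)) ∧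
      ∀ z, (g⁻¹ : GL ι F).1 *ᵥ z = z - (QuadraticMap.polar Q z p • r - QuadraticMap.polar Q z r • p) := by
    intro p r hp hr hpr
    let N : (ι → F) →ₗ[F] (ι → F) :=
      { toFun := fun z => QuadraticMap.polar Q z p • r - QuadraticMap.polar Q z r • p
        map_add' := fun z z' => by simp only [hB.add_left, add_smul]; abel
        map_smul' := fun a z => by simp only [hB.smul_left, mul_smul, smul_sub, RingHom.id_apply] }
    have hN : ∀ z, N (N z) = 0 := fun z => by
      show QuadraticMap.polar Q (N z) p • r - QuadraticMap.polar Q (N z) r • p = 0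
      have h1 : ∀ q, QuadraticMap.polar Q (N z) q =
          QuadraticMap.polar Q z p * QuadraticMap.polar Q r q - QuadraticMap.polar Q z r * QuadraticMap.polar Q p q := fun q => by
        show QuadraticMap.polar Q (QuadraticMap.polar Q z p • r - QuadraticMap.polar Q z r • p) q = _
        rw [sub_eq_add_neg, ← neg_smul, hB.add_left, hB.smul_left, hB.smul_left]; ring
      rw [h1, h1, hzero p hp, hzero r hr, hpr, hc p r, hpr]
      simp
    refine ⟨unip N hN, fun a b => ?_, unip_apply N hN, fun z => ?_⟩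
    · show Q ((unip N hN).1 *ᵥ a) = Q a
      rw [unip_apply]
      show Q (a + (QuadraticMap.polar Q a p • r - QuadraticMap.polar Q a r • p)) = Q a
      rw [sub_eq_add_neg, ← neg_smul, q_add (Q := Q), q_add (Q := Q) (QuadraticMap.polar Q a p • r), hQ.smul, hQ.smul, hB.smul_left,
        hB.smul_right, hB.add_right, hB.smul_right, hB.smul_right, hp, hr, hc p r, hpr]
      ring
    · have h2 : (unip N hN)⁻¹.1 = 1 - LinearMap.toMatrix' N := rfl
      rw [h2, Matrix.sub_mulVec, Matrix.one_mulVec, LinearMap.toMatrix'_mulVec]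
      rfl
  obtain ⟨g₁, hg₁, hg₁', hg₁i⟩ := mk u x hu hx hux
  obtain ⟨g₂, hg₂, hg₂', hg₂i⟩ := mk y v hy hv (by rw [hc v y]; exact hvy)
  refine ⟨g₁ * g₂ * g₁⁻¹ * g₂⁻¹, mem_omega_of_comm hg₁ hg₂, fun z => ?_⟩
  rw [Units.val_mul, Units.val_mul, Units.val_mul, ← Matrix.mulVec_mulVec, ← Matrix.mulVec_mulVec, ← Matrix.mulVec_mulVec,
    hg₂i, hg₁i, hg₂', hg₁']
  simp only [sub_eq_add_neg, ← neg_smul, hB.add_left, hB.smul_left, neg_add_rev, neg_neg, hzero u hu, hzero v hv, hzero x hx,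
    hzero y hy, huv, hc u v, hux, hc u x, huy, hc u y, hvx, hc v x, hvy, hc v y, hxy, hc x y, smul_add, smul_neg, add_smul,
    mul_zero, mul_one, add_zero, zero_add, zero_smul, neg_zero]
  module

/-- functionals on a maximal singular subspace come from vectors -/
theorem exists_dual (hQ : Cfsg.Geo.IsNondegenerateQuadraticForm Q) (hn : Fintype.card ι = 2 * m) {U : Submodule F (ι → F)}
    (hU : TS Q m U) (φ : Module.Dual F U) : ∃ v, ∀ z : U, QuadraticMap.polar Q z.1 v = φ z := by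
  let Ψ : (ι → F) →ₗ[F] Module.Dual F U :=
    { toFun := fun v =>
        { toFun := fun z => QuadraticMap.polar Q z.1 v
          map_add' := fun a b => hQ.polar_bilinear.add_left a.1 b.1 v
          map_smul' := fun c a => hQ.polar_bilinear.smul_left c a.1 v }
      map_add' := fun a b => LinearMap.ext fun z => hQ.polar_bilinear.add_right z.1 a b
      map_smul' := fun c a => LinearMap.ext fun z => hQ.polar_bilinear.smul_right c z.1 a }
  have hk : LinearMap.ker Ψ ≤ U := fun v hv => by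
    rw [← perp_eq hQ hn hU, mem_perp hQ]
    exact fun w hw => LinearMap.congr_fun (LinearMap.mem_ker.1 hv) ⟨w, hw⟩
  have hs : LinearMap.range Ψ = ⊤ := Submodule.eq_top_of_finrank_eq (by
    have h1 := Ψ.finrank_range_add_finrank_ker
    have h2 := Submodule.finrank_mono hk
    have h3 := (LinearMap.range Ψ).finrank_le
    rw [Subspace.dual_finrank_eq, hU.1] at h3 ⊢
    rw [Module.finrank_fintype_fun_eq_card] at h1
    have := hU.1
    omega)
  obtain ⟨v, hv⟩ := LinearMap.range_eq_top.1 hs φ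
  exact ⟨v, LinearMap.congr_fun hv⟩

/-- vectors dual to three independent vectors of a maximal singular subspace -/
theorem exists_dual_three (hQ : Cfsg.Geo.IsNondegenerateQuadraticForm Q) (hn : Fintype.card ι = 2 * m)
    {U : Submodule F (ι → F)} (hU : TS Q m U) {a : Fin 3 → (ι → F)} (ha : ∀ i, a i ∈ U) (hli : LinearIndependent F a)
    (c : Fin 3 → F) : ∃ v, ∀ i, QuadraticMap.polar Q (a i) v = c i := by
  have hli' : LinearIndependent F (fun i => (⟨a i, ha i⟩ : U)) :=
    LinearIndependent.of_comp U.subtype hli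
  obtain ⟨φ, hφ⟩ : ∃ φ : Module.Dual F U, ∀ i, φ ⟨a i, ha i⟩ = c i := by
    let L := Fintype.linearCombination F (fun i => (⟨a i, ha i⟩ : U))
    have hker : LinearMap.ker L = ⊥ := LinearMap.ker_eq_bot.2 fun p q hpq => by
      have h := Fintype.linearIndependent_iff.1 hli' (p - q) (by
        have h' : L (p - q) = 0 := by rw [map_sub, hpq, sub_self]
        simpa [L, Fintype.linearCombination_apply] using h')
      funext i
      exact sub_eq_zero.1 (h i)
    obtain ⟨g, hg⟩ := L.exists_leftInverse_of_injective hker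
    refine ⟨(Fintype.linearCombination F c).comp g, fun i => ?_⟩
    have hi : L (Pi.single i 1) = ⟨a i, ha i⟩ := by simp [L, Fintype.linearCombination_apply_single]
    rw [← hi, LinearMap.comp_apply, show g (L (Pi.single i 1)) = Pi.single i 1 from LinearMap.congr_fun hg _]
    simp [Fintype.linearCombination_apply_single]
  obtain ⟨v, hv⟩ := exists_dual hQ hn hU φ
  exact ⟨v, fun i => (hv ⟨a i, ha i⟩).trans (hφ i)⟩

/-- two elements of `Ω` attached to three independent vectors of a maximal singular subspace -/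
theorem exists_moving (hQ : Cfsg.Geo.IsNondegenerateQuadraticForm Q) (hn : Fintype.card ι = 2 * m) {U : Submodule F (ι → F)}
    (hU : TS Q m U) {u h x : ι → F} (hu : u ∈ U) (hh : h ∈ U) (hx : x ∈ U) (hli : LinearIndependent F ![u, h, x]) :
    (∃ g ∈ Cfsg.Geo.omegaGL Q, (∀ z ∈ U, g.1 *ᵥ z ∈ U) ∧ g.1 *ᵥ h = h + u) ∧
    ∃ g ∈ Cfsg.Geo.omegaGL Q, (∀ z ∈ U, g.1 *ᵥ z = z) ∧
      ∀ z, g.1 *ᵥ z = z + QuadraticMap.polar Q z h • u - QuadraticMap.polar Q z u • h := by
  have hB := hQ.polar_bilinear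
  have hmem : ∀ i : Fin 3, ![u, h, x] i ∈ U := fun i => by fin_cases i <;> assumption
  have pu : ∀ z ∈ U, ∀ z' ∈ U, QuadraticMap.polar Q z z' = 0 := fun z hz z' hz' => polar_ts hU.2 hz hz'
  obtain ⟨v₀, hv₀⟩ := exists_dual_three hQ hn hU hmem hli ![0, 1, 0]
  obtain ⟨y₀, hy₀⟩ := exists_dual_three hQ hn hU hmem hli ![0, 0, 1]
  have a0 : QuadraticMap.polar Q u v₀ = 0 := hv₀ 0
  have a1 : QuadraticMap.polar Q h v₀ = 1 := hv₀ 1
  have a2 : QuadraticMap.polar Q x v₀ = 0 := hv₀ 2
  have b0 : QuadraticMap.polar Q u y₀ = 0 := hy₀ 0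
  have b1 : QuadraticMap.polar Q h y₀ = 0 := hy₀ 1
  have b2 : QuadraticMap.polar Q x y₀ = 1 := hy₀ 2
  obtain ⟨v, hvd⟩ : ∃ v, v = v₀ + (-Q v₀) • h := ⟨_, rfl⟩
  have vq : Q v = 0 := by
    rw [hvd, q_smul_add hQ, hU.2 h hh, QuadraticMap.polar_comm Q v₀ h, a1]; ring
  have vu : QuadraticMap.polar Q u v = 0 := by rw [hvd, hB.add_right, hB.smul_right, a0, pu u hu h hh]; ring
  have vh : QuadraticMap.polar Q h v = 1 := by rw [hvd, hB.add_right, hB.smul_right, a1, pu h hh h hh]; ring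
  have vx : QuadraticMap.polar Q v x = 0 := by
    rw [QuadraticMap.polar_comm, hvd, hB.add_right, hB.smul_right, a2, pu x hx h hh]; ring
  obtain ⟨y₁, hy₁⟩ : ∃ y₁, y₁ = y₀ + (-QuadraticMap.polar Q v y₀) • h := ⟨_, rfl⟩
  have y1v : QuadraticMap.polar Q v y₁ = 0 := by
    rw [hy₁, hB.add_right, hB.smul_right, QuadraticMap.polar_comm Q v h, vh]; ring
  obtain ⟨y, hyd⟩ : ∃ y, y = y₁ + (-Q y₁) • x := ⟨_, rfl⟩
  have y1x : QuadraticMap.polar Q x y₁ = 1 := by rw [hy₁, hB.add_right, hB.smul_right, b2, pu x hx h hh]; ring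
  have yq : Q y = 0 := by
    rw [hyd, q_smul_add hQ, hU.2 x hx, QuadraticMap.polar_comm Q y₁ x, y1x]; ring
  have yu : QuadraticMap.polar Q u y = 0 := by
    rw [hyd, hB.add_right, hB.smul_right, hy₁, hB.add_right, hB.smul_right, b0, pu u hu h hh, pu u hu x hx]; ring
  have yh : QuadraticMap.polar Q h y = 0 := by
    rw [hyd, hB.add_right, hB.smul_right, hy₁, hB.add_right, hB.smul_right, b1, pu h hh h hh, pu h hh x hx]; ring
  have yv : QuadraticMap.polar Q v y = 0 := by rw [hyd, hB.add_right, hB.smul_right, y1v, vx]; ring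
  have yx : QuadraticMap.polar Q x y = 1 := by rw [hyd, hB.add_right, hB.smul_right, y1x, pu x hx x hx]; ring
  constructor
  · obtain ⟨g, hg, hgz⟩ := siegel hQ (hU.2 u hu) vq (hU.2 x hx) yq vu (pu u hu x hx) yu vx yv yx
    refine ⟨g, hg, fun z hz => ?_, ?_⟩
    · rw [hgz, pu z hz u hu, zero_smul, sub_zero]
      exact add_mem hz (U.smul_mem _ hu)
    · rw [hgz, vh, pu h hh u hu, zero_smul, sub_zero, one_smul]
  · obtain ⟨g, hg, hgz⟩ := siegel hQ (hU.2 u hu) (hU.2 h hh) (hU.2 x hx) yq (pu u hu h hh) (pu u hu x hx) yu (pu h hh x hx) yh yx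
    refine ⟨g, hg, fun z hz => ?_, hgz⟩
    rw [hgz, pu z hz u hu, pu z hz h hh, zero_smul, zero_smul, sub_zero, add_zero]

theorem exists_triple {U : Submodule F (ι → F)} (hd : 3 ≤ Module.finrank F U) {u : ι → F} {H : Submodule F (ι → F)}
    (hu : u ∉ H) (hH : 2 ≤ Module.finrank F H) : ∃ h ∈ H, ∃ x ∈ H, LinearIndependent F ![u, h, x] := by
  obtain ⟨f, hf⟩ := exists_linearIndependent_of_le_finrank hH
  refine ⟨(f 0).1, (f 0).2, (f 1).1, (f 1).2, ?_⟩
  have hf' : LinearIndependent F (fun i => ((f i : H) : ι → F)) := hf.map' H.subtype H.ker_subtype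
  have he : ![((f 0 : H) : ι → F), ((f 1 : H) : ι → F)] = fun i => ((f i : H) : ι → F) := by
    funext i; fin_cases i <;> rfl
  refine linearIndependent_finCons.2 ⟨he ▸ hf', fun hmem => hu ?_⟩
  refine (Submodule.span_le.2 ?_) hmem
  rintro _ ⟨i, rfl⟩
  fin_cases i
  · exact (f 0).2
  · exact (f 1).2

end CfsgLib.NonMax.SingularFamilies
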