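import Mathlib
import Cfsg.Prelude.Def_GeometricClasses
import Cfsg.Agent.Lib.NonMax.Tools

/-! A tensor factor with a frame preserved by its similitudes gives a stabilised decomposition into blocks. -/
set_option autoImplicit false

namespace CfsgLib.NonMax.TensorFrame
open scoped Matrix
open CfsgLib.NonMax.Tools

variable {ι : Type} [Fintype ι] [DecidableEq ι] {F : Type*} [Field F] [Finite F] {k r : ℕ}

/-- the hypotheses: a bilinear tensor map carrying the form, and an orthogonal frame of anisotropic vectors -/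
structure Data (T : (Fin k → F) →ₗ[F] (Fin r → F) →ₗ[F] (ι → F)) (f : (ι → F) → (ι → F) → F)
    (f₁ : (Fin k → F) → (Fin k → F) → F) (f₂ : (Fin r → F) → (Fin r → F) → F) (w : Fin k → (Fin k → F)) : Prop where
  hk : 2 ≤ k
  hr : 2 ≤ r
  card : Fintype.card ι = k * r
  span : Submodule.span F (Set.range fun p : (Fin k → F) × (Fin r → F) => T p.1 p.2) = ⊤
  form : ∃ c ≠ (0 : F), ∀ x y x' y', f (T x y) (T x' y') = c * (f₁ x x' * f₂ y y')
  f_add : ∀ u u' v, f (u + u') v = f u v + f u' v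
  f_smul : ∀ (c : F) u v, f (c • u) v = c * f u v
  f₂_add : ∀ u u' v, f₂ (u + u') v = f₂ u v + f₂ u' v
  f₂_smul : ∀ (c : F) u v, f₂ (c • u) v = c * f₂ u v
  f₂_nondeg : Cfsg.Geo.IsNondegenerateForm f₂
  aniso : ∀ s, f₁ (w s) (w s) ≠ 0
  orth : ∀ s t, s ≠ t → f₁ (w s) (w t) = 0
  frame : ∀ (a : GL (Fin k) F) (κ : F), κ ≠ 0 → (∀ x x', κ * f₁ (a.1 *ᵥ x) (a.1 *ᵥ x') = f₁ x x') →
    ∀ s, ∃ t, ∃ μ : F, a.1 *ᵥ w s = μ • w t

variable {T : (Fin k → F) →ₗ[F] (Fin r → F) →ₗ[F] (ι → F)} {f : (ι → F) → (ι → F) → F}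
  {f₁ : (Fin k → F) → (Fin k → F) → F} {f₂ : (Fin r → F) → (Fin r → F) → F} {w : Fin k → (Fin k → F)}

/-- the blocks -/
noncomputable def block (T : (Fin k → F) →ₗ[F] (Fin r → F) →ₗ[F] (ι → F)) (w : Fin k → (Fin k → F)) (s : Fin k) :
    Submodule F (ι → F) :=
  LinearMap.range (T (w s))

theorem mem_block (s : Fin k) (y : Fin r → F) : T (w s) y ∈ block T w s := ⟨y, rfl⟩

theorem f_zero (h : Data T f f₁ f₂ w) (v : ι → F) : f 0 v = 0 := by
  have := h.f_smul 0 0 v
  rwa [zero_smul, zero_mul] at this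

theorem f₂_zero (h : Data T f f₁ f₂ w) (v : Fin r → F) : f₂ 0 v = 0 := by
  have := h.f₂_smul 0 0 v
  rwa [zero_smul, zero_mul] at this

theorem indep_aux (h : Data T f f₁ f₂ w) (y : Fin k → (Fin r → F)) (hy : ∑ s, T (w s) (y s) = 0) : y = 0 := by
  classical
  obtain ⟨c, hc, hT⟩ := h.form
  funext t
  by_contra hne
  obtain ⟨z, hz⟩ := (h.f₂_nondeg (y t) hne).2
  let L : (ι → F) →ₗ[F] F :=
    { toFun := fun u => f u (T (w t) z), map_add' := fun u u' => h.f_add u u' _, map_smul' := fun a u => h.f_smul a u _ }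
  have hL := congrArg L hy
  rw [map_sum, map_zero, Finset.sum_eq_single t] at hL
  · have h' : c * (f₁ (w t) (w t) * f₂ (y t) z) = 0 := by rw [← hT]; exact hL
    rcases mul_eq_zero.1 h' with e | e
    · exact hc e
    · exact (mul_eq_zero.1 e).elim (h.aniso t) hz
  · intro s _ hst
    show f (T (w s) (y s)) (T (w t) z) = 0
    rw [hT, h.orth s t hst, zero_mul, mul_zero]
  · simp

theorem injective_row (h : Data T f f₁ f₂ w) (s : Fin k) : Function.Injective (T (w s)) := by
  classical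
  rw [injective_iff_map_eq_zero]
  intro y hy
  have := congrFun (indep_aux h (fun t => if t = s then y else 0) (by simp [apply_ite, hy])) s
  simpa using this

theorem isDecomp (h : Data T f f₁ f₂ w) : Cfsg.Geo.IsMDecomposition r (block T w) := by
  classical
  have hfr : ∀ s, Module.finrank F (block T w s) = r := fun s => by
    rw [block, LinearMap.finrank_range_of_inj (injective_row h s), Module.finrank_fintype_fun_eq_card, Fintype.card_fin]
  have hind : iSupIndep (block T w) := by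
    rw [iSupIndep_iff_finset_sum_eq_zero_imp_eq_zero]
    intro S v hv hsum s hs
    have : ∀ t, ∃ y, t ∈ S → T (w t) y = v t := fun t => by
      by_cases ht : t ∈ S
      · obtain ⟨y, hy⟩ := hv t ht
        exact ⟨y, fun _ => hy⟩
      · exact ⟨0, fun h' => absurd h' ht⟩
    choose y hy using this
    have hz := indep_aux h (fun t => if t ∈ S then y t else 0) (by
      simp only [apply_ite, map_zero]
      rw [Finset.sum_ite_mem, Finset.univ_inter]
      rw [← hsum]
      exact Finset.sum_congr rfl fun t ht => hy t ht)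
    have := congrFun hz s
    simp only [hs, if_true, Pi.zero_apply] at this
    rw [← hy s hs, this, map_zero]
  refine ⟨h.hk, by have := h.hr; omega, hfr, hind, ?_⟩
  let Φ : (Fin k → (Fin r → F)) →ₗ[F] (ι → F) := ∑ s, (T (w s)).comp (LinearMap.proj s)
  have hΦ : Function.Injective Φ := by
    rw [injective_iff_map_eq_zero]
    intro y hy
    exact indep_aux h y (by simpa [Φ, LinearMap.sum_apply] using hy)
  have hsurj : LinearMap.range Φ = ⊤ := Submodule.eq_top_of_finrank_eq (by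
    rw [LinearMap.finrank_range_of_inj hΦ, Module.finrank_pi_fintype, Module.finrank_fintype_fun_eq_card,
      Module.finrank_fintype_fun_eq_card]
    simp [h.card])
  rw [eq_top_iff, ← hsurj]
  rintro _ ⟨y, rfl⟩
  simp only [Φ, LinearMap.sum_apply, LinearMap.comp_apply, LinearMap.proj_apply]
  exact Submodule.sum_mem _ fun s _ => Submodule.mem_iSup_of_mem s (mem_block s (y s))

theorem map_eq_of_le (h : Data T f f₁ f₂ w) (g : GL ι F) {s t : Fin k}
    (hle : ∀ u ∈ block T w s, g.1 *ᵥ u ∈ block T w t) : (block T w s).map (Matrix.toLin' g.1) = block T w t := by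
  refine Submodule.eq_of_le_of_finrank_eq (fun v hv => ?_) ?_
  · obtain ⟨u, hu, rfl⟩ := hv
    rw [Matrix.toLin'_apply]
    exact hle u hu
  · have hinj : Function.Injective (Matrix.toLin' g.1) := fun u v e => by
      have := congrArg (fun z => (g⁻¹ : GL ι F).1 *ᵥ z) e
      simpa [Matrix.toLin'_apply, Matrix.mulVec_mulVec] using this
    rw [(Submodule.equivMapOfInjective _ hinj (block T w s)).symm.finrank_eq,
      (isDecomp h).finrank_eq, (isDecomp h).finrank_eq]

/-- the stabiliser of the tensor decomposition permutes the blocks -/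
theorem stab_le (h : Data T f f₁ f₂ w) {g : GL ι F} {a : GL (Fin k) F} {b : GL (Fin r) F}
    (hab : ∀ x y, g.1 *ᵥ T x y = T (a.1 *ᵥ x) (b.1 *ᵥ y)) (hg : ∀ u v, f (g.1 *ᵥ u) (g.1 *ᵥ v) = f u v) :
    g ∈ Cfsg.Geo.decompositionStabilizer (block T w) := by
  classical
  obtain ⟨c, hc, hT⟩ := h.form
  obtain ⟨y₀, y₁, hy⟩ : ∃ y₀ y₁, f₂ y₀ y₁ ≠ 0 := by
    obtain ⟨z, hz⟩ := (h.f₂_nondeg (fun _ => 1) (fun e => one_ne_zero (congrFun e ⟨0, by have := h.hr; omega⟩))).2
    exact ⟨_, z, hz⟩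
  set κ := f₂ (b.1 *ᵥ y₀) (b.1 *ᵥ y₁) / f₂ y₀ y₁ with hκ
  have hsim : ∀ x x', κ * f₁ (a.1 *ᵥ x) (a.1 *ᵥ x') = f₁ x x' := fun x x' => by
    have := hg (T x y₀) (T x' y₁)
    rw [hab, hab, hT, hT] at this
    have h' := mul_left_cancel₀ hc this
    rw [hκ]; field_simp; linear_combination h'
  have hκ0 : κ ≠ 0 := fun e => h.aniso ⟨0, by have := h.hk; omega⟩ (by rw [← hsim, e, zero_mul])
  choose σ μ hσ using h.frame a κ hκ0 hsim
  have hinj : Function.Injective σ := by
    intro s s' e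
    by_contra hne
    have h1 := hσ s
    have h2 := hσ s'
    rw [← e] at h2
    have hμ : ∀ i, μ i ≠ 0 := fun i e' => by
      have this := hσ i
      rw [e', zero_smul] at this
      refine (indep_zero h i ?_).elim
      have h0 := congrArg (fun z => (a⁻¹ : GL (Fin k) F).1 *ᵥ z) this
      simpa [Matrix.mulVec_mulVec] using h0
    have h3 : a.1 *ᵥ w s = (μ s / μ s') • (a.1 *ᵥ w s') := by
      rw [h1, h2, smul_smul, div_mul_cancel₀ _ (hμ s')]
    have h4 : w s = (μ s / μ s') • w s' := by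
      have := congrArg (fun z => (a⁻¹ : GL (Fin k) F).1 *ᵥ z) h3
      simpa [Matrix.mulVec_smul, Matrix.mulVec_mulVec] using this
    obtain ⟨δ, hδ⟩ : ∃ δ : Fin r → F, δ = Pi.single ⟨0, by have := h.hr; omega⟩ 1 := ⟨_, rfl⟩
    have h5 := congrFun (indep_aux h (fun i => if i = s then δ else if i = s' then -((μ s / μ s') • δ) else 0) (by
        rw [← Finset.sum_subset (Finset.subset_univ {s, s'})]
        · rw [Finset.sum_pair hne, if_pos rfl, if_neg (Ne.symm hne), if_pos rfl, map_neg, map_smul, ← LinearMap.smul_apply,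
            ← map_smul, ← h4, add_neg_cancel]
        · intro i _ hi
          simp only [Finset.mem_insert, Finset.mem_singleton, not_or] at hi
          rw [if_neg hi.1, if_neg hi.2, map_zero])) s
    rw [hδ] at h5
    simp only [if_true, Pi.zero_apply, Pi.single_eq_zero_iff] at h5
    exact one_ne_zero h5
  refine ⟨Equiv.ofBijective σ (Finite.injective_iff_bijective.1 hinj), fun s => map_eq_of_le h g ?_⟩
  rintro _ ⟨y, rfl⟩
  rw [hab, hσ, map_smul, LinearMap.smul_apply]
  exact Submodule.smul_mem _ _ (mem_block _ _)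
where
  indep_zero (h : Data T f f₁ f₂ w) (i : Fin k) (h0 : w i = 0) : False := by
    classical
    have := congrFun (indep_aux h (fun t => if t = i then (fun _ => 1) else 0) (by
      simp [apply_ite, h0])) i
    simp only [if_true] at this
    exact one_ne_zero (congrFun this ⟨0, by have := h.hr; omega⟩)

/-- elements fixing all blocks but one and mapping that one into itself lie in the stabiliser -/
theorem block_mem (h : Data T f f₁ f₂ w) (g : GL ι F) {s₀ : Fin k}
    (h0 : ∀ y, g.1 *ᵥ T (w s₀) y ∈ block T w s₀) (h1 : ∀ s, s ≠ s₀ → ∀ y, g.1 *ᵥ T (w s) y = T (w s) y) :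
    g ∈ Cfsg.Geo.decompositionStabilizer (block T w) := by
  refine ⟨1, fun s => map_eq_of_le h g ?_⟩
  rintro _ ⟨y, rfl⟩
  rcases eq_or_ne s s₀ with rfl | hs
  · exact h0 y
  · rw [h1 s hs y]; exact mem_block _ _

/-- such an element, fixing a vector of the exceptional block but not all, is not factorisable -/
theorem not_factor (h : Data T f f₁ f₂ w) {g : GL ι F} {s₀ s₁ : Fin k} {y₀ y₁ : Fin r → F} (hy₀ : y₀ ≠ 0)
    (h1 : ∀ y, g.1 *ᵥ T (w s₁) y = T (w s₁) y) (hfix : g.1 *ᵥ T (w s₀) y₀ = T (w s₀) y₀)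
    (hmove : g.1 *ᵥ T (w s₀) y₁ ≠ T (w s₀) y₁) :
    ¬ ∃ (a : GL (Fin k) F) (b : GL (Fin r) F), ∀ x y, g.1 *ᵥ T x y = T (a.1 *ᵥ x) (b.1 *ᵥ y) := by
  classical
  rintro ⟨a, b, hab⟩
  obtain ⟨c, hc, hT⟩ := h.form
  set κ := f₁ (a.1 *ᵥ w s₁) (w s₁) / f₁ (w s₁) (w s₁) with hκ
  have hext : ∀ u u' : Fin r → F, (∀ z, f₂ u z = f₂ u' z) → u = u' := fun u u' hu => by
    by_contra hne
    obtain ⟨z, hz⟩ := (h.f₂_nondeg (u - u') (sub_ne_zero.2 hne)).2
    apply hz
    have := h.f₂_add (u - u') u' z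
    rw [sub_add_cancel, hu] at this
    exact right_eq_add.1 this
  have hb : ∀ y, κ • (b.1 *ᵥ y) = y := fun y => hext _ _ fun z => by
    have e := congrArg (fun u => f u (T (w s₁) z)) ((hab (w s₁) y).symm.trans (h1 y))
    simp only [hT] at e
    have e' := mul_left_cancel₀ hc e
    rw [h.f₂_smul, hκ]
    have := h.aniso s₁
    field_simp
    linear_combination e'
  have hκ0 : κ ≠ 0 := fun e => hy₀ (by rw [← hb y₀, e, zero_smul])
  have hscal : ∀ y, g.1 *ᵥ T (w s₀) y = T (κ⁻¹ • (a.1 *ᵥ w s₀)) y := fun y => by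
    rw [hab]
    conv_rhs => rw [← hb y]
    rw [map_smul T, LinearMap.smul_apply, map_smul, smul_smul, inv_mul_cancel₀ hκ0, one_smul]
  set x := κ⁻¹ • (a.1 *ᵥ w s₀) - w s₀ with hx
  have hTx : T x y₀ = 0 := by
    rw [hx, map_sub, LinearMap.sub_apply, ← hscal, hfix, sub_self]
  obtain ⟨z₀, hz₀⟩ := (h.f₂_nondeg y₀ hy₀).2
  have hxs : ∀ t, f₁ x (w t) = 0 := fun t => by
    have e : f (T x y₀) (T (w t) z₀) = 0 := by rw [hTx, f_zero h]
    rw [hT] at e
    exact ((mul_eq_zero.1 ((mul_eq_zero.1 e).resolve_left hc)).resolve_right hz₀)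
  apply hmove
  suffices T x y₁ = 0 by
    rw [hx, map_sub, LinearMap.sub_apply, ← hscal, sub_eq_zero] at this
    exact this
  have hyt : ∀ t, ∃ y, T (w t) y = comp (isDecomp h) t (T x y₁) := fun t => comp_mem (isDecomp h) t _
  choose ys hys using hyt
  rw [← sum_comp (isDecomp h) (T x y₁)]
  refine Finset.sum_eq_zero fun t _ => ?_
  rw [← hys t]
  suffices ys t = 0 by rw [this, map_zero]
  by_contra hne
  obtain ⟨z, hz⟩ := (h.f₂_nondeg (ys t) hne).2
  let L : (ι → F) →ₗ[F] F :=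
    { toFun := fun v => f v (T (w t) z), map_add' := fun v v' => h.f_add v v' _, map_smul' := fun a v => h.f_smul a v _ }
  have e : L (T x y₁) = 0 := by
    show f (T x y₁) (T (w t) z) = 0
    rw [hT, hxs, zero_mul, mul_zero]
  rw [← sum_comp (isDecomp h) (T x y₁), map_sum, Finset.sum_eq_single t] at e
  · have e' : c * (f₁ (w t) (w t) * f₂ (ys t) z) = 0 := by rw [← hT, hys]; exact e
    exact (mul_eq_zero.1 e').elim hc fun e'' => (mul_eq_zero.1 e'').elim (h.aniso t) hz
  · intro s _ hst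
    show f (comp (isDecomp h) s (T x y₁)) (T (w t) z) = 0
    rw [← hys s, hT, h.orth s t hst, zero_mul, mul_zero]
  · simp

end CfsgLib.NonMax.TensorFrame
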