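import Mathlib
import Cfsg.Agent.Lib.NonMax.TensorFrame
import Cfsg.Agent.Lib.NonMax.OmegaTools

/-! Stabilisers of tensor decompositions with a framed small factor are not maximal. -/
set_option autoImplicit false

namespace CfsgLib.NonMax.TensorNotMax
open scoped Matrix
open CfsgLib.NonMax.Tools CfsgLib.NonMax.TensorFrame

variable {ι : Type} [Fintype ι] [DecidableEq ι] {F : Type*} [Field F] [Finite F] {k r : ℕ}
  {T : (Fin k → F) →ₗ[F] (Fin r → F) →ₗ[F] (ι → F)} {f : (ι → F) → (ι → F) → F}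
  {f₁ : (Fin k → F) → (Fin k → F) → F} {f₂ : (Fin r → F) → (Fin r → F) → F} {w : Fin k → (Fin k → F)}
  {S A : Subgroup (GL ι F)}

theorem conclude (h : Data T f f₁ f₂ w) (hA : ∀ g ∈ A, ∀ u v, f (g.1 *ᵥ u) (g.1 *ᵥ v) = f u v)
    (hS : ∀ g ∈ S, ∃ (a : GL (Fin k) F) (b : GL (Fin r) F), ∀ x y, g.1 *ᵥ T x y = T (a.1 *ᵥ x) (b.1 *ᵥ y))
    {x y : GL ι F} (hxA : x ∈ A) (hyA : y ∈ A) {s₀ s₁ : Fin k} (hs : s₁ ≠ s₀) {y₀ y₁ : Fin r → F} (hy₀ : y₀ ≠ 0)
    (h0 : ∀ v, x.1 *ᵥ T (w s₀) v ∈ block T w s₀) (h1 : ∀ s, s ≠ s₀ → ∀ v, x.1 *ᵥ T (w s) v = T (w s) v)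
    (hfix : x.1 *ᵥ T (w s₀) y₀ = T (w s₀) y₀) (hmove : x.1 *ᵥ T (w s₀) y₁ ≠ T (w s₀) y₁)
    (hy : y ∉ Cfsg.Geo.decompositionStabilizer (block T w)) :
    ∃ K : Subgroup (GL ι F), S ⊓ A < K ∧ K < A := by
  refine ⟨Cfsg.Geo.decompositionStabilizer (block T w) ⊓ A, lt_and_lt (fun g hg => ?_) inf_le_right
    ⟨block_mem h x h0 h1, hxA⟩ (fun hx => not_factor h hy₀ (h1 s₁ hs) hfix hmove (hS x hx.1)) hyA (fun hy' => hy hy'.1)⟩
  obtain ⟨a, b, hab⟩ := hS g hg.1
  exact ⟨stab_le h hab (hA g hg.2), hg.2⟩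

/-- with transvections available -/
theorem not_maximal_transvection (h : Data T f f₁ f₂ w) (hA : ∀ g ∈ A, ∀ u v, f (g.1 *ᵥ u) (g.1 *ᵥ v) = f u v)
    (hS : ∀ g ∈ S, ∃ (a : GL (Fin k) F) (b : GL (Fin r) F), ∀ x y, g.1 *ᵥ T x y = T (a.1 *ᵥ x) (b.1 *ᵥ y))
    (hadd' : ∀ v x y, f v (x + y) = f v x + f v y) {y : Fin r → F} (hy : y ≠ 0) (hyy : f₂ y y = 0)
    (htr : ∀ v, f v v = 0 → ∃ g ∈ A, ∀ u, g.1 *ᵥ u = u + f u v • v) :
    ∃ K : Subgroup (GL ι F), S ⊓ A < K ∧ K < A := by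
  classical
  obtain ⟨c, hc, hT⟩ := h.form
  obtain ⟨z, hz⟩ := (h.f₂_nondeg y hy).1
  obtain ⟨s₀, hs₀⟩ : ∃ s : Fin k, s = ⟨0, by have := h.hk; omega⟩ := ⟨_, rfl⟩
  obtain ⟨s₁, hs₁⟩ : ∃ s : Fin k, s = ⟨1, by have := h.hk; omega⟩ := ⟨_, rfl⟩
  have hne : s₁ ≠ s₀ := by simp [hs₀, hs₁]
  set p := T (w s₀) y with hp
  set p' := T (w s₁) y with hp'
  have hpp : f p p = 0 := by rw [hT, hyy, mul_zero, mul_zero]
  obtain ⟨g, hgA, hg⟩ := htr p hpp
  have hp'p' : f p' p' = 0 := by rw [hT, hyy, mul_zero, mul_zero]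
  obtain ⟨g', hgA', hg'⟩ := htr (p + p') (by
    rw [h.f_add, hadd', hadd', hpp, hp'p', hT, hT, hyy]; ring)
  have hzp : f (T (w s₀) z) p ≠ 0 := by
    rw [hT]; exact mul_ne_zero hc (mul_ne_zero (h.aniso s₀) hz)
  have hp0 : p ≠ 0 := fun e => hy (injective_row h s₀ (by rw [← hp, e, map_zero]))
  refine conclude h hA hS hgA hgA' hne hy (fun v => ?_) (fun s hs v => ?_) ?_ (y₁ := z) ?_ ?_
  · rw [hg]
    exact add_mem (mem_block _ _) (Submodule.smul_mem _ _ (mem_block _ _))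
  · rw [hg, hT, h.orth s s₀ hs, zero_mul, mul_zero, zero_smul, add_zero]
  · rw [hg, hpp, zero_smul, add_zero]
  · rw [hg, ne_eq, add_eq_left, smul_eq_zero, not_or]
    exact ⟨hzp, hp0⟩
  · refine not_stab (i := s₀) (mem_block s₀ z) (fun l => ?_)
    set v := g'.1 *ᵥ T (w s₀) z with hv
    have hlam : f (T (w s₀) z) (p + p') = f (T (w s₀) z) p := by
      rw [hadd', hT _ z _ y, hT _ z _ y, h.orth s₀ s₁ hne.symm]; ring
    set lam := f (T (w s₀) z) p
    have hve : v = T (w s₀) (z + lam • y) + T (w s₁) (lam • y) := by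
      rw [hv, hg', hlam, map_add, map_smul, map_smul, smul_add, hp, hp']; abel
    refine not_mem_of_comp (isDecomp h) hne.symm ?_ ?_ l <;>
      rw [hve, map_add, comp_of_mem (isDecomp h) (mem_block _ _), comp_of_mem (isDecomp h) (mem_block _ _)]
    · rw [if_pos rfl, if_neg hne, add_zero]
      intro e
      have e' : z + lam • y = 0 := injective_row h s₀ (by rw [e, map_zero])
      apply hz
      have := h.f₂_add z (lam • y) y
      rw [e', f₂_zero h, h.f₂_smul, hyy, mul_zero, add_zero] at this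
      exact this.symm
    · rw [if_neg hne.symm, if_pos rfl, zero_add]
      intro e
      exact (smul_ne_zero hzp hy) (injective_row h s₁ (by rw [e, map_zero]))

open CfsgLib.NonMax.OmegaTools in
/-- orthogonal groups: pairs of reflections -/
theorem not_maximal_reflection {Q : (ι → F) → F} (hQ : Cfsg.Geo.IsNondegenerateQuadraticForm Q) (h2 : (2 : F) ≠ 0)
    (h : Data T (QuadraticMap.polar Q) f₁ f₂ w)
    (hS : ∀ g ∈ S, ∃ (a : GL (Fin k) F) (b : GL (Fin r) F), ∀ x y, g.1 *ᵥ T x y = T (a.1 *ᵥ x) (b.1 *ᵥ y))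
    (hf₂ : ∀ u v, f₂ u v = f₂ v u) (heq : ∀ s t, f₁ (w s) (w s) = f₁ (w t) (w t) ∨ f₁ (w s) (w s) + f₁ (w t) (w t) ≠ 0)
    {y y' z : Fin r → F} (hy : f₂ y y ≠ 0) (hy' : f₂ y' y' = f₂ y y) (hz : z ≠ 0) (hyy' : f₂ y y' = 0) (hyz : f₂ y z = 0)
    (hy'z : f₂ y' z = 0) :
    ∃ K : Subgroup (GL ι F), S ⊓ Cfsg.Geo.omegaGL Q < K ∧ K < Cfsg.Geo.omegaGL Q := by
  classical
  obtain ⟨c, hc, hT⟩ := h.form
  have hB := hQ.polar_bilinear
  obtain ⟨s₀, hs₀⟩ : ∃ s : Fin k, s = ⟨0, by have := h.hk; omega⟩ := ⟨_, rfl⟩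
  obtain ⟨s₁, hs₁⟩ : ∃ s : Fin k, s = ⟨1, by have := h.hk; omega⟩ := ⟨_, rfl⟩
  have hne : s₁ ≠ s₀ := by simp [hs₀, hs₁]
  have hsum : f₁ (w s₀) (w s₀) + f₁ (w s₁) (w s₁) ≠ 0 := by
    rcases heq s₀ s₁ with e | e
    · rw [e, ← two_mul]; exact mul_ne_zero h2 (h.aniso s₁)
    · exact e
  have hq : ∀ v, Q v ≠ 0 ↔ QuadraticMap.polar Q v v ≠ 0 := fun v => by
    rw [polar_self hQ]
    simp [h2]
  have hqd : ∀ u v, QuadraticMap.polar Q u v = 0 → Q u = Q v → Q u ≠ 0 → Q (u - v) ≠ 0 := fun u v huv e hu => by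
    have h1 : Q (u - v) = Q u + Q v + QuadraticMap.polar Q u (-v) := by
      rw [sub_eq_add_neg]
      have h5 : Q (-v) = Q v := (toQ hQ).map_neg v
      simp only [QuadraticMap.polar, h5]; ring
    rw [h1, ← neg_one_smul F v, hB.smul_right, huv, mul_zero, add_zero, ← e, ← two_mul]
    exact mul_ne_zero h2 hu
  have hqeq : ∀ u v, QuadraticMap.polar Q u u = QuadraticMap.polar Q v v → Q u = Q v := fun u v e => by
    rw [polar_self hQ, polar_self hQ] at e
    exact mul_left_cancel₀ h2 e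
  set a := T (w s₀) y with ha'
  set b := T (w s₀) y' with hb'
  have ha : Q a ≠ 0 := (hq a).2 (by rw [hT]; exact mul_ne_zero hc (mul_ne_zero (h.aniso _) hy))
  have hab : Q b = Q a := hqeq b a (by rw [hT, hT, hy'])
  have hpab : QuadraticMap.polar Q a b = 0 := by rw [hT, hyy', mul_zero, mul_zero]
  have hd := hqd a b hpab hab.symm ha
  set A' := T (w s₀) y + T (w s₁) y with hA'
  set B' := T (w s₀) y' + T (w s₁) y' with hB'
  have hAval : ∀ u v, QuadraticMap.polar Q (T (w s₀) u + T (w s₁) u) (T (w s₀) v + T (w s₁) v) =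
      c * ((f₁ (w s₀) (w s₀) + f₁ (w s₁) (w s₁)) * f₂ u v) := fun u v => by
    rw [hB.add_left, hB.add_right, hB.add_right, hT, hT, hT, hT, h.orth _ _ hne, h.orth _ _ hne.symm]; ring
  have hA0 : Q A' ≠ 0 := (hq A').2 (by rw [hAval]; exact mul_ne_zero hc (mul_ne_zero hsum hy))
  have hAB : Q B' = Q A' := hqeq B' A' (by rw [hAval, hAval, hy'])
  have hpAB : QuadraticMap.polar Q A' B' = 0 := by rw [hAval, hyy', mul_zero, mul_zero]
  have hD := hqd A' B' hpAB hAB.symm hA0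
  refine conclude h (fun g hg u v => omega_polar hg u v) hS (pair_mem hQ ha hab hd) (pair_mem hQ hA0 hAB hD) hne hz
    (fun v => ?_) (fun s hs v => ?_) ?_ (y₁ := y) ?_ ?_
  · have hblk : ∀ (u : ι → F) (hu : Q u ≠ 0), u ∈ block T w s₀ → ∀ x ∈ block T w s₀, (refl hQ hu).1 *ᵥ x ∈ block T w s₀ :=
      fun u hu hub x hx => by rw [refl_apply]; exact sub_mem hx (Submodule.smul_mem _ _ hub)
    rw [Units.val_mul, ← Matrix.mulVec_mulVec]
    exact hblk _ _ (mem_block _ _) _ (hblk _ _ (mem_block _ _) _ (mem_block _ _))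
  · rw [Units.val_mul, ← Matrix.mulVec_mulVec, refl_fix (hQ := hQ) (a := b) (x := T (w s) v),
      refl_fix (hQ := hQ) (a := a) (x := T (w s) v)]
    · rw [hT, h.orth _ _ hs.symm, zero_mul, mul_zero]
    · rw [hT, h.orth _ _ hs.symm, zero_mul, mul_zero]
  · rw [Units.val_mul, ← Matrix.mulVec_mulVec, refl_fix (hQ := hQ) (a := b) (x := T (w s₀) z),
      refl_fix (hQ := hQ) (a := a) (x := T (w s₀) z)]
    · rw [hT, hyz, mul_zero, mul_zero]
    · rw [hT, hy'z, mul_zero, mul_zero]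
  · rw [Units.val_mul, ← Matrix.mulVec_mulVec, refl_fix (hQ := hQ) (a := b) (x := a), refl_apply, polar_self hQ,
      ← mul_assoc, mul_comm _ (2 : F), mul_assoc, inv_mul_cancel₀ ha, mul_one]
    · intro e
      have : (2 : F) • a = 0 := sub_eq_self.1 e
      rcases smul_eq_zero.1 this with e' | e'
      · exact h2 e'
      · exact ha (by rw [e']; have := hQ.smul 0 0; simpa using this)
    · rw [QuadraticMap.polar_comm]; exact hpab
  · refine not_stab (i := s₀) (mem_block s₀ (y + z)) (fun l => ?_)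
    have hx1 : QuadraticMap.polar Q B' (T (w s₀) (y + z)) = 0 := by
      rw [hB', hB.add_left, map_add, hB.add_right, hB.add_right, hT, hT, hT, hT, h.orth _ _ hne, hy'z, hf₂ y' y, hyy']; ring
    set μ := (Q A')⁻¹ * QuadraticMap.polar Q A' (T (w s₀) (y + z)) with hμ
    have hμ0 : μ ≠ 0 := by
      refine mul_ne_zero (inv_ne_zero hA0) ?_
      have : QuadraticMap.polar Q A' (T (w s₀) (y + z)) = c * (f₁ (w s₀) (w s₀) * f₂ y y) := by
        rw [hA', hB.add_left, map_add, hB.add_right, hB.add_right, hT, hT, hT, hT, h.orth _ _ hne, hyz]; ring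
      rw [this]
      exact mul_ne_zero hc (mul_ne_zero (h.aniso _) hy)
    rw [Units.val_mul, ← Matrix.mulVec_mulVec, refl_fix (hQ := hQ) (a := B') (x := T (w s₀) (y + z)) _ hx1,
      refl_apply, ← hμ]
    have hve : T (w s₀) (y + z) - μ • A' = T (w s₀) (y + z - μ • y) + T (w s₁) (-(μ • y)) := by
      rw [hA', map_sub, map_neg, map_smul, map_smul, smul_add]; abel
    have hy0 : y ≠ 0 := fun e => hy (by rw [e]; exact f₂_zero h 0)
    refine not_mem_of_comp (isDecomp h) hne.symm ?_ ?_ l <;>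
      rw [hve, map_add, comp_of_mem (isDecomp h) (mem_block _ _), comp_of_mem (isDecomp h) (mem_block _ _)]
    · rw [if_pos rfl, if_neg hne, add_zero]
      intro e
      have e' : y + z - μ • y = 0 := injective_row h s₀ (by rw [e, map_zero])
      have hz' : z = (μ - 1) • y := by rw [← sub_eq_zero, ← e']; module
      rcases eq_or_ne (μ - 1) 0 with hm | hm
      · exact hz (by rw [hz', hm, zero_smul])
      · apply hy
        have : f₂ z y = 0 := by rw [hf₂]; exact hyz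
        rw [hz', h.f₂_smul] at this
        exact (mul_eq_zero.1 this).resolve_left hm
    · rw [if_neg hne.symm, if_pos rfl, zero_add]
      intro e
      exact (neg_ne_zero.2 (smul_ne_zero hμ0 hy0)) (injective_row h s₁ (by rw [e, map_zero]))

end CfsgLib.NonMax.TensorNotMax
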