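import Mathlib
import Cfsg.Prelude.Def_GeometricClasses

/-! Frames of the small factors: symmetric forms in dimension 3 over three elements, unitary forms in dimension 2 over four. -/
set_option autoImplicit false

namespace CfsgLib.NonMax.TensorSpaces
open scoped Matrix

variable {F : Type*} [Field F] {n : ℕ}

theorem three_facts [Fintype F] (hq : Fintype.card F = 3) :
    (3 : F) = 0 ∧ (2 : F) ≠ 0 ∧ ∀ a : F, a ≠ 0 → a = 1 ∨ a = -1 := by
  have h0 := FiniteField.cast_card_eq_zero F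
  rw [hq] at h0
  have h3 : (3 : F) = 0 := by simpa using h0
  refine ⟨h3, fun e => one_ne_zero (α := F) (by linear_combination h3 - e), fun a e => ?_⟩
  have := FiniteField.pow_card_sub_one_eq_one a e
  rw [hq] at this
  exact mul_self_eq_one_iff.1 (by rw [← pow_two]; exact this)

theorem orth_basis (h2 : (2 : F) ≠ 0) {f : (Fin n → F) → (Fin n → F) → F} (hf : Cfsg.Geo.IsSymmetricForm f) :
    ∃ v : Fin n → (Fin n → F), (∀ i, f (v i) (v i) ≠ 0) ∧ (∀ i j, i ≠ j → f (v i) (v j) = 0) ∧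
      Submodule.span F (Set.range v) = ⊤ := by
  haveI : Invertible (2 : F) := invertibleOfNonzero h2
  let B : LinearMap.BilinForm F (Fin n → F) :=
    LinearMap.mk₂ F f hf.bilinear.add_left (fun c x v => hf.bilinear.smul_left c x v) (fun v x y => hf.bilinear.add_right v x y)
      (fun c v x => hf.bilinear.smul_right c v x)
  have hB : LinearMap.IsSymm B := ⟨fun x y => hf.symm x y⟩
  obtain ⟨v, hv⟩ := LinearMap.BilinForm.exists_orthogonal_basis hB
  have hn : Module.finrank F (Fin n → F) = n := by simp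
  let w := v.reindex (finCongr hn)
  have horth : ∀ i j, i ≠ j → f (w i) (w j) = 0 := fun i j hij => by
    simp only [w, Module.Basis.reindex_apply]
    exact hv (fun e => hij ((finCongr hn).symm.injective e))
  refine ⟨w, fun i h0 => ?_, horth, w.span_eq⟩
  obtain ⟨x, hx⟩ := (hf.nondegenerate (w i) (w.ne_zero i)).2
  apply hx
  have : B (w i) = 0 := w.ext fun j => by
    rcases eq_or_ne i j with rfl | hne
    · exact h0
    · exact horth i j hne
  exact LinearMap.congr_fun this x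

theorem orth_pair (h3 : (3 : F) = 0) {f : (Fin n → F) → (Fin n → F) → F} (hf : Cfsg.Geo.IsSymmetricForm f) {p q s : Fin n → F}
    (hpq : f p q = 0) (hps : f p s = 0) (hqs : f q s = 0) (hq : f q q = f p p) (hs : f s s = -f p p) :
    let w := ![p + q, p - q, s]
    (∀ i, f (w i) (w i) = -f p p) ∧ ∀ i j, i ≠ j → f (w i) (w j) = 0 := by
  have hb := hf.bilinear
  have hqp : f q p = 0 := by rw [hf.symm]; exact hpq
  have hsp : f s p = 0 := by rw [hf.symm]; exact hps
  have hsq : f s q = 0 := by rw [hf.symm]; exact hqs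
  have hsubL : ∀ x y v, f (x - y) v = f x v - f y v := fun x y v => by
    rw [eq_sub_iff_add_eq, ← hb.add_left, sub_add_cancel]
  have hsubR : ∀ x y v, f v (x - y) = f v x - f v y := fun x y v => by
    rw [eq_sub_iff_add_eq, ← hb.add_right, sub_add_cancel]
  have e1 : f (p + q) (p + q) = -f p p := by
    simp only [hb.add_left, hb.add_right, hpq, hqp, hq]; linear_combination f p p * h3
  have e2 : f (p - q) (p - q) = -f p p := by
    simp only [hsubL, hsubR, hpq, hqp, hq]; linear_combination f p p * h3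
  constructor
  · intro i
    fin_cases i
    · exact e1
    · exact e2
    · exact hs
  · intro i j hij
    fin_cases i <;> fin_cases j <;>
      simp [hb.add_left, hb.add_right, hsubL, hsubR, hpq, hps, hqs, hqp, hsp, hsq, hq] at hij ⊢

theorem exists_equal_triple [Fintype F] (hq : Fintype.card F = 3) {f : (Fin 3 → F) → (Fin 3 → F) → F}
    (hf : Cfsg.Geo.IsSymmetricForm f) :
    ∃ (w : Fin 3 → (Fin 3 → F)) (c : F), c ≠ 0 ∧ (∀ i, f (w i) (w i) = c) ∧ ∀ i j, i ≠ j → f (w i) (w j) = 0 := by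
  obtain ⟨h3, h2, hel⟩ := three_facts hq
  obtain ⟨v, han, ho, -⟩ := orth_basis h2 hf
  have hpm : ∀ i, f (v i) (v i) = f (v 0) (v 0) ∨ f (v i) (v i) = -f (v 0) (v 0) := fun i => by
    rcases hel _ (han i) with e | e <;> rcases hel _ (han 0) with e' | e' <;> rw [e, e'] <;> simp
  rcases hpm 1 with h1 | h1 <;> rcases hpm 2 with h2' | h2'
  · refine ⟨v, _, han 0, fun i => ?_, ho⟩
    fin_cases i
    · rfl
    · exact h1
    · exact h2'
  · obtain ⟨a, b⟩ := orth_pair h3 hf (ho 0 1 (by decide)) (ho 0 2 (by decide)) (ho 1 2 (by decide)) h1 h2'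
    exact ⟨_, _, neg_ne_zero.2 (han 0), a, b⟩
  · obtain ⟨a, b⟩ := orth_pair h3 hf (ho 0 2 (by decide)) (ho 0 1 (by decide)) (ho 2 1 (by decide)) h2' h1
    exact ⟨_, _, neg_ne_zero.2 (han 0), a, b⟩
  · obtain ⟨a, b⟩ := orth_pair h3 hf (ho 1 2 (by decide)) (ho 1 0 (by decide)) (ho 2 0 (by decide)) (by rw [h1, h2'])
      (by rw [h1, neg_neg])
    exact ⟨_, _, neg_ne_zero.2 (han 1), a, b⟩

/-- the frame of a ternary symmetric form over three elements is permuted by similitudes -/
theorem frame_three [Fintype F] (hq : Fintype.card F = 3) {f : (Fin 3 → F) → (Fin 3 → F) → F}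
    (hf : Cfsg.Geo.IsSymmetricForm f) :
    ∃ w : Fin 3 → (Fin 3 → F), (∀ s, f (w s) (w s) ≠ 0) ∧ (∀ s t, s ≠ t → f (w s) (w t) = 0) ∧
      (∀ s t, f (w s) (w s) = f (w t) (w t)) ∧
      ∀ (a : GL (Fin 3) F) (κ : F), κ ≠ 0 → (∀ x x', κ * f (a.1 *ᵥ x) (a.1 *ᵥ x') = f x x') →
        ∀ s, ∃ t, ∃ μ : F, a.1 *ᵥ w s = μ • w t := by
  obtain ⟨h3, h2, hel⟩ := three_facts hq
  obtain ⟨w, c, hc, hval, ho⟩ := exists_equal_triple hq hf
  have hb := hf.bilinear
  have hli : LinearIndependent F w := by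
    refine LinearMap.BilinForm.linearIndependent_of_iIsOrtho
      (B := LinearMap.mk₂ F f hb.add_left (fun a x v => hb.smul_left a x v) (fun v x y => hb.add_right v x y)
        (fun a v x => hb.smul_right a v x)) (fun i j hij => ho i j hij) (fun i h => hc ((hval i).symm.trans h))
  let Bw := basisOfLinearIndependentOfCardEqFinrank hli (by simp)
  have hBw : ⇑Bw = w := coe_basisOfLinearIndependentOfCardEqFinrank hli (by simp)
  have hexp : ∀ u, ∃ p q r : F, u = p • w 0 + q • w 1 + r • w 2 := fun u => by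
    refine ⟨Bw.repr u 0, Bw.repr u 1, Bw.repr u 2, ?_⟩
    conv_lhs => rw [← Bw.sum_repr u, Fin.sum_univ_three, hBw]
  have hform : ∀ p q r p' q' r' : F,
      f (p • w 0 + q • w 1 + r • w 2) (p' • w 0 + q' • w 1 + r' • w 2) = c * (p * p' + q * q' + r * r') := by
    intro p q r p' q' r'
    simp only [hb.add_left, hb.smul_left, hb.add_right, hb.smul_right, hval, ho 0 1 (by decide), ho 0 2 (by decide),
      ho 1 0 (by decide), ho 1 2 (by decide), ho 2 0 (by decide), ho 2 1 (by decide)]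
    ring
  have hsq : ∀ x : F, x ≠ 0 → x * x = 1 := fun x hx => by rcases hel x hx with e | e <;> rw [e] <;> ring
  have hneg : ∀ x y : F, x * x + y * y = 0 → x = 0 ∧ y = 0 := fun x y h => by
    have h1 : x = 0 := by
      by_contra hx
      rcases eq_or_ne y 0 with hy | hy
      · rw [hy, mul_zero, add_zero, hsq x hx] at h; exact one_ne_zero h
      · rw [hsq x hx, hsq y hy] at h; exact h2 (by linear_combination h)
    refine ⟨h1, ?_⟩
    rw [h1, zero_mul, zero_add] at h
    exact mul_self_eq_zero.1 h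
  have hperp : ∀ s v, f (w s) v = 0 → f v v = 0 → v = 0 := fun s v h h' => by
    obtain ⟨p, q, r, rfl⟩ := hexp v
    rw [hform] at h'
    replace h' := (mul_eq_zero.1 h').resolve_left hc
    simp only [hb.add_right, hb.smul_right] at h
    fin_cases s <;>
      simp [hval, ho 0 1 (by decide), ho 0 2 (by decide), ho 1 0 (by decide), ho 1 2 (by decide), ho 2 0 (by decide),
        ho 2 1 (by decide), hc] at h
    · subst h; obtain ⟨a, b⟩ := hneg q r (by linear_combination h'); simp [a, b]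
    · subst h; obtain ⟨a, b⟩ := hneg p r (by linear_combination h'); simp [a, b]
    · subst h; obtain ⟨a, b⟩ := hneg p q (by linear_combination h'); simp [a, b]
  refine ⟨w, fun s => by rw [hval]; exact hc, ho, fun s t => by rw [hval, hval], fun a κ hκ ha s => ?_⟩
  have huv : ∀ v, f (a.1 *ᵥ w s) v = 0 → f v v = 0 → v = 0 := fun v h h' => by
    have hv : a.1 *ᵥ ((a⁻¹ : GL (Fin 3) F).1 *ᵥ v) = v := by
      rw [Matrix.mulVec_mulVec, ← Units.val_mul, mul_inv_cancel, Units.val_one, Matrix.one_mulVec]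
    rw [← hv, hperp s ((a⁻¹ : GL (Fin 3) F).1 *ᵥ v) (by rw [← ha (w s) ((a⁻¹ : GL (Fin 3) F).1 *ᵥ v), hv, h, mul_zero])
      (by rw [← ha ((a⁻¹ : GL (Fin 3) F).1 *ᵥ v) ((a⁻¹ : GL (Fin 3) F).1 *ᵥ v), hv, h', mul_zero]), Matrix.mulVec_zero]
  have huu : f (a.1 *ᵥ w s) (a.1 *ᵥ w s) ≠ 0 := fun h => hc (by rw [← hval s, ← ha (w s) (w s), h, mul_zero])
  obtain ⟨p, q, r, hu⟩ := hexp (a.1 *ᵥ w s)
  rw [hu] at huv huu ⊢
  rw [hform] at huu
  have bad : ∀ p' q' r' : F, p * p' + q * q' + r * r' = 0 → p' * p' + q' * q' + r' * r' = 0 →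
      p' = 0 ∧ q' = 0 ∧ r' = 0 := fun p' q' r' h h' => by
    have h0 := huv (p' • w 0 + q' • w 1 + r' • w 2) (by rw [hform, h, mul_zero]) (by rw [hform, h', mul_zero])
    have := (Fintype.linearIndependent_iff.1 hli) ![p', q', r'] (by simpa [Fin.sum_univ_three] using h0)
    exact ⟨this 0, this 1, this 2⟩
  rcases eq_or_ne p 0 with hp | hp <;> rcases eq_or_ne q 0 with hq' | hq' <;> rcases eq_or_ne r 0 with hr | hr
  · simp [hp, hq', hr] at huu
  · exact ⟨2, r, by simp [hp, hq']⟩
  · exact ⟨1, q, by simp [hp, hr]⟩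
  · exact absurd (bad 1 r (-q) (by linear_combination hp) (by
      linear_combination hsq r hr + hsq q hq' + h3)).1 one_ne_zero
  · exact ⟨0, p, by simp [hq', hr]⟩
  · exact absurd (bad r 1 (-p) (by linear_combination hq') (by
      linear_combination hsq r hr + hsq p hp + h3)).2.1 one_ne_zero
  · exact absurd (bad q (-p) 1 (by linear_combination hr) (by
      linear_combination hsq q hq' + hsq p hp + h3)).2.2 one_ne_zero
  · exact absurd (mul_eq_zero.2 (Or.inr (by linear_combination hsq p hp + hsq q hq' + hsq r hr + h3))) huu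

/-- three orthogonal anisotropic vectors, the first two of equal value -/
theorem triple [Fintype F] (hq : Fintype.card F = 3) (hn : 3 ≤ n) {f : (Fin n → F) → (Fin n → F) → F}
    (hf : Cfsg.Geo.IsSymmetricForm f) :
    ∃ y y' z, f y y ≠ 0 ∧ f y' y' = f y y ∧ f z z ≠ 0 ∧ f y y' = 0 ∧ f y z = 0 ∧ f y' z = 0 := by
  obtain ⟨-, h2, hel⟩ := three_facts hq
  obtain ⟨v, han, ho, -⟩ := orth_basis h2 hf
  obtain ⟨i0, h0⟩ : ∃ i : Fin n, i = ⟨0, by omega⟩ := ⟨_, rfl⟩
  obtain ⟨i1, h1⟩ : ∃ i : Fin n, i = ⟨1, by omega⟩ := ⟨_, rfl⟩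
  obtain ⟨i2, hi2⟩ : ∃ i : Fin n, i = ⟨2, by omega⟩ := ⟨_, rfl⟩
  have h01 : i0 ≠ i1 := by simp [h0, h1]
  have h02 : i0 ≠ i2 := by simp [h0, hi2]
  have h12 : i1 ≠ i2 := by simp [h1, hi2]
  rcases hel _ (han i0) with a | a <;> rcases hel _ (han i1) with b | b <;> rcases hel _ (han i2) with d | d
  all_goals
    first
    | exact ⟨_, _, _, han i0, b.trans a.symm, han i2, ho _ _ h01, ho _ _ h02, ho _ _ h12⟩
    | exact ⟨_, _, _, han i0, d.trans a.symm, han i1, ho _ _ h02, ho _ _ h01, ho _ _ h12.symm⟩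
    | exact ⟨_, _, _, han i1, d.trans b.symm, han i0, ho _ _ h12, ho _ _ h01.symm, ho _ _ h02.symm⟩

/-! ### unitary forms over four elements -/

theorem four_facts [Fintype F] (hF : Fintype.card F = 4) :
    (2 : F) = 0 ∧ (∀ a : F, a ≠ 0 → a ^ 3 = 1) ∧ ∃ a : F, a ≠ 0 ∧ a ≠ 1 := by
  classical
  have h0 := FiniteField.cast_card_eq_zero F
  rw [hF] at h0
  have h4 : (4 : F) = 0 := by simpa using h0
  have h2 : (2 : F) = 0 := mul_self_eq_zero.1 (by linear_combination h4)
  refine ⟨h2, fun a ha => ?_, ?_⟩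
  · have := FiniteField.pow_card_sub_one_eq_one a ha
    rwa [hF] at this
  · by_contra hno
    push Not at hno
    have : Fintype.card F ≤ ({0, 1} : Finset F).card := Finset.card_le_card fun a _ => by
      rcases eq_or_ne a 0 with e | e
      · simp [e]
      · simp [hno a e]
    have := Finset.card_le_two (a := (0 : F)) (b := 1)
    omega

theorem u_right [Fintype F] (hF : Fintype.card F = 4) {f : (Fin n → F) → (Fin n → F) → F}
    (hf : Cfsg.Geo.IsUnitaryFormPow 2 f) :
    (∀ v x y, f v (x + y) = f v x + f v y) ∧ ∀ (a : F) v x, f v (a • x) = a ^ 2 * f v x := by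
  obtain ⟨h2, -, -⟩ := four_facts hF
  constructor
  · intro v x y
    rw [hf.herm, hf.add_left, hf.herm v x, hf.herm v y]
    linear_combination (f x v * f y v) * h2
  · intro a v x
    rw [hf.herm, hf.smul_left, hf.herm v x]; ring

theorem u_value [Fintype F] (hF : Fintype.card F = 4) {f : (Fin n → F) → (Fin n → F) → F}
    (hf : Cfsg.Geo.IsUnitaryFormPow 2 f) {x : Fin n → F} (hx : f x x ≠ 0) : f x x = 1 :=
  mul_right_cancel₀ hx (by linear_combination -(hf.herm x x))

theorem u_aniso [Fintype F] (hF : Fintype.card F = 4) (hn : 0 < n) {f : (Fin n → F) → (Fin n → F) → F}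
    (hf : Cfsg.Geo.IsUnitaryFormPow 2 f) : ∃ x, f x x = 1 := by
  obtain ⟨h2, -, a, ha0, ha1⟩ := four_facts hF
  obtain ⟨hadd, hsmul⟩ := u_right hF hf
  by_contra hno
  push Not at hno
  have hz : ∀ x, f x x = 0 := fun x => not_not.1 fun h => hno x (u_value hF hf h)
  obtain ⟨y, hy⟩ := (hf.nondegenerate (fun _ => 1) (fun e => one_ne_zero (congrFun e ⟨0, hn⟩))).2
  set x : Fin n → F := fun _ => 1
  have key : ∀ b : F, b * f x y + (b * f x y) ^ 2 = 0 := fun b => by
    have := hz (b • x + y)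
    rw [hf.add_left, hadd, hadd, hf.smul_left, hf.smul_left, hsmul, hsmul, hz x, hz y, hf.herm y x] at this
    linear_combination this
  have hone : ∀ b : F, b ≠ 0 → b * f x y = 1 := fun b hb => by
    refine mul_right_cancel₀ (mul_ne_zero hb hy) ?_
    linear_combination key b - b * f x y * h2
  have := hone a ha0
  rw [← hone 1 one_ne_zero, one_mul] at this
  exact ha1 (mul_right_cancel₀ hy (by linear_combination this))

theorem u_perp [Fintype F] (hF : Fintype.card F = 4) (hn : 2 ≤ n) {f : (Fin n → F) → (Fin n → F) → F}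
    (hf : Cfsg.Geo.IsUnitaryFormPow 2 f) {x : Fin n → F} (hx : f x x = 1) : ∃ z, z ≠ 0 ∧ f z x = 0 := by
  obtain ⟨y, hy⟩ : ∃ y, y ∉ Submodule.span F {x} := by
    by_contra hno
    push Not at hno
    have h1 : Module.finrank F (⊤ : Submodule F (Fin n → F)) ≤ Module.finrank F (Submodule.span F ({x} : Set (Fin n → F))) :=
      Submodule.finrank_mono fun y _ => hno y
    have h2 := finrank_span_le_card (R := F) ({x} : Set (Fin n → F))
    rw [finrank_top, Module.finrank_fintype_fun_eq_card, Fintype.card_fin] at h1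
    simp at h2
    omega
  refine ⟨y + (-f y x) • x, fun e => hy ?_, by rw [hf.add_left, hf.smul_left, hx]; ring⟩
  rw [eq_neg_of_add_eq_zero_left e, ← neg_smul]
  exact Submodule.smul_mem _ _ (Submodule.mem_span_singleton_self _)

theorem u_isotropic [Fintype F] (hF : Fintype.card F = 4) (hn : 2 ≤ n) {f : (Fin n → F) → (Fin n → F) → F}
    (hf : Cfsg.Geo.IsUnitaryFormPow 2 f) : ∃ y, y ≠ 0 ∧ f y y = 0 := by
  obtain ⟨h2, -, -⟩ := four_facts hF
  obtain ⟨hadd, -⟩ := u_right hF hf
  obtain ⟨x, hx⟩ := u_aniso hF (by omega) hf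
  obtain ⟨z, hz, hzx⟩ := u_perp hF hn hf hx
  rcases eq_or_ne (f z z) 0 with e | e
  · exact ⟨z, hz, e⟩
  have hxz : f x z = 0 := by rw [hf.herm, hzx]; ring
  refine ⟨z + x, fun e' => ?_, ?_⟩
  · rw [eq_neg_of_add_eq_zero_left e', ← neg_one_smul F x, hf.smul_left, hx] at hzx
    simp at hzx
  · rw [hf.add_left, hadd, hadd, hzx, hxz, hx, u_value hF hf e]; linear_combination h2

/-- the frame of a binary unitary form over four elements is permuted by similitudes -/
theorem frame_two [Fintype F] (hF : Fintype.card F = 4) {f : (Fin 2 → F) → (Fin 2 → F) → F}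
    (hf : Cfsg.Geo.IsUnitaryFormPow 2 f) :
    ∃ w : Fin 2 → (Fin 2 → F), (∀ s, f (w s) (w s) ≠ 0) ∧ (∀ s t, s ≠ t → f (w s) (w t) = 0) ∧
      ∀ (a : GL (Fin 2) F) (κ : F), κ ≠ 0 → (∀ x x', κ * f (a.1 *ᵥ x) (a.1 *ᵥ x') = f x x') →
        ∀ s, ∃ t, ∃ μ : F, a.1 *ᵥ w s = μ • w t := by
  obtain ⟨h2, hcube, -⟩ := four_facts hF
  obtain ⟨hadd, hsmul⟩ := u_right hF hf
  obtain ⟨x, hx⟩ := u_aniso hF two_pos hf
  obtain ⟨z, hz, hzx⟩ := u_perp hF le_rfl hf hx
  have hxz : f x z = 0 := by rw [hf.herm, hzx]; ring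
  have hli : LinearIndependent F ![x, z] := by
    rw [LinearIndependent.pair_iff]
    intro s r hsr
    have := congrArg (fun v => f v x) hsr
    simp only [hf.add_left, hf.smul_left, hx, hzx] at this
    rw [← zero_smul F x, hf.smul_left] at this
    have hs : s = 0 := by linear_combination this
    subst hs
    rw [zero_smul, zero_add, smul_eq_zero] at hsr
    exact ⟨rfl, hsr.resolve_right hz⟩
  let B := basisOfLinearIndependentOfCardEqFinrank hli (by simp)
  have hB : ⇑B = ![x, z] := coe_basisOfLinearIndependentOfCardEqFinrank hli (by simp)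
  have hexp : ∀ u, ∃ p q : F, u = p • x + q • z := fun u => by
    refine ⟨B.repr u 0, B.repr u 1, ?_⟩
    conv_lhs => rw [← B.sum_repr u, Fin.sum_univ_two, hB]
    simp
  have hzz : f z z ≠ 0 := fun h => by
    obtain ⟨u, hu⟩ := (hf.nondegenerate z hz).1
    obtain ⟨p, q, rfl⟩ := hexp u
    rw [hf.add_left, hf.smul_left, hf.smul_left, hxz, h] at hu
    simp at hu
  have hz1 := u_value hF hf hzz
  refine ⟨![x, z], fun s => ?_, fun s t hst => ?_, fun a κ hκ ha s => ?_⟩
  · fin_cases s <;> simp [hx, hz1]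
  · fin_cases s <;> fin_cases t <;> simp [hxz, hzx] at hst ⊢
  · obtain ⟨p, q, hu⟩ := hexp (a.1 *ᵥ ![x, z] s)
    rw [hu]
    rcases eq_or_ne p 0 with hp | hp
    · exact ⟨1, q, by simp [hp]⟩
    rcases eq_or_ne q 0 with hq | hq
    · exact ⟨0, p, by simp [hq]⟩
    exfalso
    have h1 : f (![x, z] s) (![x, z] s) = 1 := by fin_cases s <;> simp [hx, hz1]
    have h := ha (![x, z] s) (![x, z] s)
    simp only [h1, hu, hf.add_left, hadd, hf.smul_left, hsmul, hx, hz1, hxz, hzx] at h
    exact one_ne_zero (α := F) (by linear_combination -h + κ * hcube p hp + κ * hcube q hq + κ * h2)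

end CfsgLib.NonMax.TensorSpaces
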