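import Mathlib
import Cfsg.Prelude.Def_GeometricClasses
import Cfsg.Agent.Lib.NonMax.Tools

/-! Coordinates for a tensor decomposition `F^ι ≅ F^n₁ ⊗ F^n₂`. -/
set_option autoImplicit false

namespace CfsgLib.NonMax.TensorTools
open scoped Matrix Kronecker

variable {ι : Type} [Fintype ι] [DecidableEq ι] {F : Type*} [Field F] {n₁ n₂ : ℕ}

/-- pure tensors -/
noncomputable def tp (e : ι ≃ Fin n₁ × Fin n₂) (P : GL ι F) :
    (Fin n₁ → F) →ₗ[F] (Fin n₂ → F) →ₗ[F] (ι → F) :=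
  LinearMap.mk₂ F (fun x y => P.1 *ᵥ ((fun c : Fin n₁ × Fin n₂ => x c.1 * y c.2) ∘ e))
    (fun x x' y => by
      rw [← Matrix.mulVec_add]; congr 1; funext i
      simp only [Function.comp_apply, Pi.add_apply]; ring)
    (fun c x y => by
      rw [← Matrix.mulVec_smul]; congr 1; funext i
      simp only [Function.comp_apply, Pi.smul_apply, smul_eq_mul]; ring)
    (fun x y y' => by
      rw [← Matrix.mulVec_add]; congr 1; funext i
      simp only [Function.comp_apply, Pi.add_apply]; ring)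
    (fun c x y => by
      rw [← Matrix.mulVec_smul]; congr 1; funext i
      simp only [Function.comp_apply, Pi.smul_apply, smul_eq_mul]; ring)

theorem tp_apply (e : ι ≃ Fin n₁ × Fin n₂) (P : GL ι F) (x : Fin n₁ → F) (y : Fin n₂ → F) :
    tp e P x y = P.1 *ᵥ ((fun c : Fin n₁ × Fin n₂ => x c.1 * y c.2) ∘ e) := rfl

/-- conjugated, reindexed matrices act on coordinates -/
theorem conj_reindex_mulVec (e : ι ≃ Fin n₁ × Fin n₂) (P : GL ι F) (k : GL (Fin n₁ × Fin n₂) F)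
    (z : Fin n₁ × Fin n₂ → F) :
    (MulAut.conj P (Cfsg.Geo.glReindex e.symm k)).1 *ᵥ (P.1 *ᵥ (z ∘ e)) = P.1 *ᵥ ((k.1 *ᵥ z) ∘ e) := by
  show (P.1 * (Cfsg.Geo.glReindex e.symm k).1 * (P⁻¹ : GL ι F).1) *ᵥ (P.1 *ᵥ (z ∘ e)) = _
  rw [Matrix.mulVec_mulVec, mul_assoc, Units.inv_mul, mul_one, ← Matrix.mulVec_mulVec]
  congr 1
  funext i
  show ∑ j, k.1 (e.symm.symm i) (e.symm.symm j) * z (e j) = _
  rw [Equiv.symm_symm, Function.comp_apply, ← Equiv.sum_comp e.symm]
  simp only [Equiv.apply_symm_apply]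
  rfl

/-- members of the stabiliser act factorwise -/
theorem exists_factors (e : ι ≃ Fin n₁ × Fin n₂) (P : GL ι F) {g : GL ι F}
    (hg : g ∈ Cfsg.Geo.tensorProductSubgroup n₁ n₂ e P) :
    ∃ (a : GL (Fin n₁) F) (b : GL (Fin n₂) F), ∀ x y, g.1 *ᵥ tp e P x y = tp e P (a.1 *ᵥ x) (b.1 *ᵥ y) := by
  obtain ⟨_, ⟨k, ⟨a, b, hk⟩, rfl⟩, rfl⟩ := hg
  refine ⟨a, b, fun x y => ?_⟩
  show (MulAut.conj P (Cfsg.Geo.glReindex e.symm k)).1 *ᵥ _ = _
  rw [tp_apply, tp_apply, conj_reindex_mulVec, hk]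
  congr 2
  funext c
  simp only [Matrix.mulVec, dotProduct, Matrix.kroneckerMap_apply, Fintype.sum_prod_type, Finset.mul_sum, Finset.sum_mul]
  rw [Finset.sum_comm]
  exact Finset.sum_congr rfl fun j _ => Finset.sum_congr rfl fun i _ => by ring

/-- every vector is a combination of pure tensors -/
theorem span_tp (e : ι ≃ Fin n₁ × Fin n₂) (P : GL ι F) :
    Submodule.span F (Set.range fun p : (Fin n₁ → F) × (Fin n₂ → F) => tp e P p.1 p.2) = ⊤ := by
  classical
  rw [eq_top_iff]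
  intro v _
  have hv : v = P.1 *ᵥ ((fun c => ((P⁻¹ : GL ι F).1 *ᵥ v) (e.symm c)) ∘ e) := by
    have h : (fun c => ((P⁻¹ : GL ι F).1 *ᵥ v) (e.symm c)) ∘ e = (P⁻¹ : GL ι F).1 *ᵥ v := by funext i; simp
    rw [h, Matrix.mulVec_mulVec, ← Units.val_mul, mul_inv_cancel, Units.val_one, Matrix.one_mulVec]
  set z : Fin n₁ × Fin n₂ → F := fun c => ((P⁻¹ : GL ι F).1 *ᵥ v) (e.symm c)
  have hz : v = ∑ c, z c • tp e P (Pi.single c.1 1) (Pi.single c.2 1) := by
    rw [hv]
    simp only [tp_apply, ← Matrix.mulVec_smul, ← Matrix.mulVec_sum]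
    congr 1
    funext i
    simp only [Function.comp_apply, Finset.sum_apply, Pi.smul_apply, smul_eq_mul]
    rw [Finset.sum_eq_single (e i)]
    · simp
    · intro c _ hc
      rcases eq_or_ne c.1 (e i).1 with h1 | h1
      · have h2 : c.2 ≠ (e i).2 := fun h2 => hc (Prod.ext h1 h2)
        simp [h2.symm]
      · simp [h1.symm]
    · simp
  rw [hz]
  exact Submodule.sum_mem _ fun c _ => Submodule.smul_mem _ _ (Submodule.subset_span ⟨(_, _), rfl⟩)

theorem formOfGram_eq {κ : Type} [Fintype κ] [DecidableEq κ] (σ : F → F) (f : (κ → F) → (κ → F) → F)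
    (hadd : ∀ x y v, f (x + y) v = f x v + f y v) (hsmul : ∀ (c : F) x v, f (c • x) v = c * f x v)
    (hadd' : ∀ v x y, f v (x + y) = f v x + f v y) (hsmul' : ∀ (c : F) v x, f v (c • x) = σ c * f v x) (x y : κ → F) :
    Cfsg.Geo.formOfGram σ (Cfsg.Geo.gramMatrix f) x y = f x y := by
  let L : (κ → F) → ((κ → F) →ₗ[F] F) := fun v =>
    { toFun := fun u => f u v, map_add' := fun u u' => hadd u u' v, map_smul' := fun c u => hsmul c u v }
  let R : (κ → F) →+ F :=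
    { toFun := fun v => f x v
      map_zero' := by
        have h := hadd' x 0 0
        rw [add_zero] at h
        exact left_eq_add.1 h
      map_add' := hadd' x }
  have hexp : ∀ v : κ → F, v = ∑ b, v b • (Pi.single b (1 : F) : κ → F) := fun v => by
    funext i; simp [Finset.sum_apply, Pi.single_apply]
  show _ = R y
  conv_rhs => rw [hexp y, map_sum]
  rw [Cfsg.Geo.formOfGram, Finset.sum_comm]
  refine Finset.sum_congr rfl fun b _ => ?_
  show _ = f x (y b • Pi.single b 1)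
  rw [hsmul']
  show _ = σ (y b) * L (Pi.single b 1) x
  conv_rhs => rw [hexp x, map_sum]
  rw [Finset.mul_sum]
  refine Finset.sum_congr rfl fun a _ => ?_
  rw [map_smul, smul_eq_mul]
  show x a * f (Pi.single a 1) (Pi.single b 1) * σ (y b) = σ (y b) * (x a * f (Pi.single a 1) (Pi.single b 1))
  ring

/-- the form on pure tensors -/
theorem form_tp {σ : F → F} (hσ : ∀ a b, σ (a * b) = σ a * σ b) {f : (ι → F) → (ι → F) → F}
    {f₁ : (Fin n₁ → F) → (Fin n₁ → F) → F} {f₂ : (Fin n₂ → F) → (Fin n₂ → F) → F} {e : ι ≃ Fin n₁ × Fin n₂}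
    {P : GL ι F} (h₁ : ∀ x y, Cfsg.Geo.formOfGram σ (Cfsg.Geo.gramMatrix f₁) x y = f₁ x y)
    (h₂ : ∀ x y, Cfsg.Geo.formOfGram σ (Cfsg.Geo.gramMatrix f₂) x y = f₂ x y)
    (hT : Cfsg.Geo.IsTensorFormStructure σ f f₁ f₂ e P) :
    ∃ c ≠ (0 : F), ∀ x y x' y', f (tp e P x y) (tp e P x' y') = c * (f₁ x x' * f₂ y y') := by
  obtain ⟨c, hc, h⟩ := hT
  refine ⟨c, hc, fun x y x' y' => ?_⟩
  rw [tp_apply, tp_apply, h, ← h₁, ← h₂]
  congr 1
  simp only [Cfsg.Geo.formOfGram, Matrix.kroneckerMap_apply, Fintype.sum_prod_type, hσ, Finset.sum_mul, Finset.mul_sum]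
  conv_rhs => enter [2, b]; rw [Finset.sum_comm]
  conv_rhs => rw [Finset.sum_comm]
  refine Finset.sum_congr rfl fun a _ => Finset.sum_congr rfl fun b _ => ?_
  rw [Finset.sum_comm]
  refine Finset.sum_congr rfl fun b' _ => Finset.sum_congr rfl fun a' _ => ?_
  ring

end CfsgLib.NonMax.TensorTools
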