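import Mathlib
import Cfsg.Agent.Lib.NonMax.TensorTools

/-! A factor of dimension 2 over two elements: its group normalises a subgroup of order three. -/
set_option autoImplicit false

namespace CfsgLib.NonMax.TensorTwo
open scoped Matrix Kronecker
open CfsgLib.NonMax.TensorTools

variable {F : Type*} [Field F] {ι : Type} [Fintype ι] [DecidableEq ι] {r : ℕ}

/-- the matrix of order three -/
def w : Matrix (Fin 2) (Fin 2) F := !![0, 1; 1, 1]

theorem w_cube (h2 : (2 : F) = 0) : (w : Matrix (Fin 2) (Fin 2) F) * w * w = 1 := by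
  have h11 : (1 : F) + 1 = 0 := one_add_one_eq_two.trans h2
  ext i j
  fin_cases i <;> fin_cases j <;> simp [w, Matrix.mul_apply, Fin.sum_univ_two, h11]

/-- the element of order three acting on the first factor -/
noncomputable def W0 (h2 : (2 : F) = 0) : GL (Fin 2 × Fin r) F where
  val := w ⊗ₖ (1 : Matrix (Fin r) (Fin r) F)
  inv := (w * w) ⊗ₖ (1 : Matrix (Fin r) (Fin r) F)
  val_inv := by rw [← Matrix.mul_kronecker_mul, mul_one, ← mul_assoc, w_cube h2, Matrix.one_kronecker_one]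
  inv_val := by rw [← Matrix.mul_kronecker_mul, mul_one, w_cube h2, Matrix.one_kronecker_one]

theorem W0_cube (h2 : (2 : F) = 0) : (W0 (r := r) h2) * W0 h2 * W0 h2 = 1 := by
  refine Units.ext ?_
  show (w ⊗ₖ (1 : Matrix (Fin r) (Fin r) F)) * (w ⊗ₖ 1) * (w ⊗ₖ 1) = 1
  rw [← Matrix.mul_kronecker_mul, ← Matrix.mul_kronecker_mul, mul_one, mul_one, w_cube h2, Matrix.one_kronecker_one]

theorem two_facts [Fintype F] (hq : Fintype.card F = 2) : (2 : F) = 0 ∧ ∀ a : F, a = 0 ∨ a = 1 := by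
  have h0 := FiniteField.cast_card_eq_zero F
  rw [hq] at h0
  refine ⟨by simpa using h0, fun a => ?_⟩
  rcases eq_or_ne a 0 with e | e
  · exact Or.inl e
  · have := FiniteField.pow_card_sub_one_eq_one a e
    rw [hq] at this
    exact Or.inr (by simpa using this)

theorem conj_w (h2 : (2 : F) = 0) (hel : ∀ a : F, a = 0 ∨ a = 1) (a : GL (Fin 2) F) :
    a.1 * w = w * a.1 ∨ a.1 * w = w * w * a.1 := by
  have h11 : (1 : F) + 1 = 0 := one_add_one_eq_two.trans h2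
  have hd : a.1 0 0 * a.1 1 1 - a.1 0 1 * a.1 1 0 ≠ 0 := by
    rw [← Matrix.det_fin_two]
    exact ((Matrix.isUnit_iff_isUnit_det _).1 a.isUnit).ne_zero
  have ha : a.1 = !![a.1 0 0, a.1 0 1; a.1 1 0, a.1 1 1] := Matrix.eta_fin_two _
  rw [ha]
  rcases hel (a.1 0 0) with e₁ | e₁ <;> rcases hel (a.1 0 1) with e₂ | e₂ <;> rcases hel (a.1 1 0) with e₃ | e₃ <;>
    rcases hel (a.1 1 1) with e₄ | e₄ <;> rw [e₁, e₂, e₃, e₄] at hd ⊢ <;> simp [h11] at hd ⊢ <;> simp [w, h11]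

theorem kron_conj (h2 : (2 : F) = 0) (hel : ∀ a : F, a = 0 ∨ a = 1) {k : GL (Fin 2 × Fin r) F}
    (hk : k ∈ Cfsg.Geo.kroneckerSubgroup 2 r F) :
    k * W0 h2 = W0 h2 * k ∨ k * W0 h2 = W0 h2 * W0 h2 * k := by
  obtain ⟨a, b, hab⟩ := hk
  refine (conj_w h2 hel a).imp (fun e => Units.ext ?_) (fun e => Units.ext ?_)
  · show k.1 * (w ⊗ₖ 1) = (w ⊗ₖ 1) * k.1
    rw [hab, ← Matrix.mul_kronecker_mul, ← Matrix.mul_kronecker_mul, mul_one, one_mul, e]
  · show k.1 * (w ⊗ₖ 1) = (w ⊗ₖ 1) * (w ⊗ₖ 1) * k.1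
    rw [hab, ← Matrix.mul_kronecker_mul, ← Matrix.mul_kronecker_mul, ← Matrix.mul_kronecker_mul, mul_one, one_mul, one_mul, e]

theorem mem_normalizer {G : Type*} [Group G] {g W : G} (hW : W * W * W = 1)
    (h : g * W = W * g ∨ g * W = W * W * g) : g ∈ Subgroup.normalizer (Subgroup.zpowers W : Set G) := by
  have hinv : W * W = W⁻¹ := eq_inv_of_mul_eq_one_left hW
  rw [hinv] at h
  have key : ∃ n : ℤ, (n = 1 ∨ n = -1) ∧ g * W * g⁻¹ = W ^ n := by
    rcases h with h | h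
    · exact ⟨1, Or.inl rfl, by rw [h, zpow_one, mul_inv_cancel_right]⟩
    · exact ⟨-1, Or.inr rfl, by rw [h, zpow_neg_one, mul_inv_cancel_right]⟩
  obtain ⟨n, hn, hg⟩ := key
  rw [Subgroup.mem_normalizer_iff]
  intro x
  try simp only [SetLike.mem_coe]
  constructor
  · intro hx
    obtain ⟨k, hk⟩ := Subgroup.mem_zpowers_iff.1 hx
    refine Subgroup.mem_zpowers_iff.2 ⟨n * k, ?_⟩
    rw [zpow_mul, ← hg, conj_zpow, hk]
  · intro hx
    obtain ⟨k, hk⟩ := Subgroup.mem_zpowers_iff.1 hx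
    refine Subgroup.mem_zpowers_iff.2 ⟨n * k, ?_⟩
    have hx' : x = g⁻¹ * W ^ k * g := by rw [hk]; group
    have hsq : n * (n * k) = k := by rcases hn with rfl | rfl <;> ring
    rw [hx', show g⁻¹ * W ^ k * g = g⁻¹ * (W ^ n) ^ (n * k) * g by rw [← zpow_mul, hsq], ← hg, conj_zpow]
    group

theorem normalizer_cases {G : Type*} [Group G] {g W : G} (hW : W * W * W = 1) (hW1 : W ≠ 1)
    (hg : g ∈ Subgroup.normalizer (Subgroup.zpowers W : Set G)) : g * W = W * g ∨ g * W = W * W * g := by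
  obtain ⟨k, hk⟩ := Subgroup.mem_zpowers_iff.1 ((Subgroup.mem_normalizer_iff.1 hg W).1 (Subgroup.mem_zpowers W))
  have h3 : W ^ (3 : ℤ) = 1 := by
    rw [← hW, show (3 : ℤ) = 1 + 1 + 1 by norm_num, zpow_add, zpow_add, zpow_one]
  have hr : k % 3 = 0 ∨ k % 3 = 1 ∨ k % 3 = 2 := by omega
  have hk' : W ^ k = W ^ (k % 3) := by
    conv_lhs => rw [← Int.emod_add_mul_ediv k 3, zpow_add, zpow_mul, h3, one_zpow, mul_one]
  have hgW : g * W = W ^ k * g := by rw [hk, inv_mul_cancel_right]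
  rcases hr with e | e | e <;> rw [hk', e] at hgW
  · refine absurd ?_ hW1
    rw [zpow_zero, one_mul] at hgW
    exact mul_eq_left.1 hgW
  · exact Or.inl (by rwa [zpow_one] at hgW)
  · exact Or.inr (by rwa [zpow_two] at hgW)

/-- transport of matrices on coordinates -/
noncomputable def Φ (e : ι ≃ Fin 2 × Fin r) (P : GL ι F) : GL (Fin 2 × Fin r) F ≃* GL ι F :=
  (Cfsg.Geo.glReindex e.symm).trans (MulAut.conj P)

theorem mem_tensor {e : ι ≃ Fin 2 × Fin r} {P : GL ι F} {g : GL ι F}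
    (hg : g ∈ Cfsg.Geo.tensorProductSubgroup 2 r e P) : ∃ k ∈ Cfsg.Geo.kroneckerSubgroup 2 r F, g = Φ e P k := by
  obtain ⟨_, ⟨k, hk, rfl⟩, rfl⟩ := hg
  exact ⟨k, hk, rfl⟩

theorem W0_tp (h2 : (2 : F) = 0) (e : ι ≃ Fin 2 × Fin r) (P : GL ι F) (x : Fin 2 → F) (y : Fin r → F) :
    (Φ e P (W0 h2)).1 *ᵥ tp e P x y = tp e P (w *ᵥ x) y := by
  show (MulAut.conj P (Cfsg.Geo.glReindex e.symm (W0 h2))).1 *ᵥ _ = _
  rw [tp_apply, tp_apply, conj_reindex_mulVec]
  congr 2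
  funext c
  simp [W0, Matrix.mulVec, dotProduct, Matrix.kroneckerMap_apply, Fintype.sum_prod_type, Matrix.one_apply]
  ring

theorem W0_ne (h2 : (2 : F) = 0) (hr : 0 < r) : (W0 (r := r) h2) ≠ 1 := fun e => by
  have := congrArg (fun g : GL (Fin 2 × Fin r) F => g.1 (0, ⟨0, hr⟩) (0, ⟨0, hr⟩)) e
  simp [W0, w, Matrix.kroneckerMap_apply] at this

theorem stab_le [Fintype F] (hq : Fintype.card F = 2) (h2 : (2 : F) = 0) {e : ι ≃ Fin 2 × Fin r} {P : GL ι F} {g : GL ι F}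
    (hg : g ∈ Cfsg.Geo.tensorProductSubgroup 2 r e P) :
    g ∈ Subgroup.normalizer (Subgroup.zpowers (Φ e P (W0 h2)) : Set (GL ι F)) := by
  obtain ⟨k, hk, rfl⟩ := mem_tensor hg
  refine mem_normalizer (by rw [← map_mul, ← map_mul, W0_cube, map_one]) ?_
  exact (kron_conj h2 (two_facts hq).2 hk).imp (fun h => by rw [← map_mul, ← map_mul, h])
    (fun h => by rw [← map_mul, ← map_mul, ← map_mul, h])

end CfsgLib.NonMax.TensorTwo
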